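import Cfsg.Agent.Lib.MinDeg.SpK
import Cfsg.Agent.Lib.MinDeg.UniFour
import Cfsg.Agent.Lib.Symp.Orb

/-!
# Minimal degrees of symplectic groups
-/

set_option autoImplicit false

namespace Cfsg.Lib.MinDeg.Sp

open Module Submodule Cfsg.Lib.Symp MulAction Pointwise

variable {F V : Type*} [Field F] [AddCommGroup V] [Module F V] {B : LinearMap.BilinForm F V}
  {hA : B.IsAlt} {x y u v : V} {a b c w : F} {g : isom B} {Ω : Type*} [MulAction (isom B) Ω]
  {ω ω₁ ω₂ : Ω} [Finite F] [FiniteDimensional F V] [Finite Ω] (hB : B.Nondegenerate) {q n : ℕ}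
  (hq : Nat.card F = q) (hn : finrank F V = 2 * n + 2)
include hB hq hn

theorem lt_card_J (h2 : (2 : F) = 0) (hs : ∀ s : F, ∃ μ, μ ^ 2 = s) (hb : b ≠ 0) (hb' : b ≠ 1)
    (hP : ¬ P hA (stabilizer _ ω) x) (hK : ∀ u, B x u = 0 → u ∈ K hA (stabilizer _ ω) x) :
    q ^ (2 * n) - 1 + (q - 1) ≤ (q - 1) * Nat.card (J hA x ω) := by
  haveI : Finite V := Module.finite_of_finite F
  have hx := ne_zero_of_not_p hP
  have : ∀ u, ∃ c : F, ¬ ∀ β, E hA (stabilizer _ ω) x ((c * β) • u) (c * β ^ 2) := fun u => by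
    by_contra! e
    exact hb' (eq_of_bad hs hP hb one_ne_zero (e b) (e 1))
  choose c hc using this
  have k : ∀ u u' c', B x u = 0 → B x u' = 0 → QRel hA x (tv hA u (c u) • ω) (tv hA u' c' • ω) →
      u ∈ span F {x, u'} := fun u u' c' a1 a2 e => by_contra fun e' => by
    obtain ⟨z, a3, a4⟩ := qRel_iff.1 e
    refine hc u (bad hB h2 hK a1 a2 e' a3 (c' := c') ?_)
    rw [mem_stabilizer_iff, mul_smul, mul_smul, a4, ← mul_smul, tv_mul, ← two_mul, h2, zero_mul,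
      tv_zero_right, one_smul]
  have h3 := card_le_mul_of_card_fiber (fun u : {v // v ∈ (N B x).toAddSubgroup ∧ v ∉ F ∙ x} =>
    (⟨⟨_, tv hA u (c u), tv_apply_of u.2.1, rfl⟩, fun e => u.2.2 (by
      simpa [Set.pair_comm x, span_insert_zero] using k u 0 0 u.2.1 (map_zero _)
        (Quotient.exact (Subtype.mk.inj e)))⟩ :
      {O : J hA x ω // O ≠ ⟨_, tv hA 0 0, by simp, rfl⟩})) (k := q * (q - 1)) fun O => not_lt.1 fun h => by
    obtain ⟨⟨u, rfl⟩⟩ := (Nat.card_ne_zero.1 (Nat.ne_zero_of_lt h)).1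
    have a1 := card_diff_add hx (X := (span F {x, u.1}).toAddSubgroup) fun c =>
      smul_mem _ c (subset_span (by simp))
    rw [card_span_pair hx u.2.2, hq] at a1
    refine h.not_ge (le_trans (Nat.card_le_card_of_injective (β := {v // v ∈
      (span F {x, u.1}).toAddSubgroup ∧ v ∉ F ∙ x}) (fun v => ⟨v.1.1, k _ _ _ v.1.2.1 u.2.1
        (Quotient.exact (Subtype.mk.inj (Subtype.mk.inj v.2))), v.1.2.2⟩) fun _ _ e =>
          Subtype.ext (Subtype.ext (congrArg Subtype.val e :))) ?_)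
    rw [Nat.mul_sub_one, ← sq]; omega
  rw [Nat.eq_sub_of_add_eq (card_diff hA hB hq hn hx), ← Nat.mul_sub_one, mul_assoc] at h3
  exact (Nat.add_le_add_right (Nat.le_of_mul_le_mul_left h3 (hq ▸ Nat.card_pos)) _).trans
    ((Nat.mul_succ _ _).ge.trans (Nat.mul_le_mul_left _ (Finite.card_subtype_lt (x := ⟨_, tv hA 0 0,
      by simp, rfl⟩) (not_not.2 rfl))))

theorem add_le_m (h1 : 1 ≤ n) (hx : x ≠ 0) (hK : ∀ u ∈ K hA (stabilizer _ ω₁) x, u ∈ F ∙ x)
    (hK' : ∀ u, B x u = 0 → u ∈ K hA (stabilizer _ ω₂) x) (hw : w ∈ A hA x ω₁) (hw' : w ∈ A hA x ω₂) :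
    q ^ (2 * n) + Nat.card (J hA x ω₂) ≤ m hA Ω x w := by
  haveI : Finite V := Module.finite_of_finite F
  choose g hg hg' using fun O : J hA x ω₂ => O.2
  let Z : AddSubgroup (N B x) := (F ∙ x).toAddSubgroup.comap (N B x).subtype.toAddMonoidHom
  have h2 := Root.card_le_m (R := root hA x) (B := LinearMap.mul F F) (w := w) (Sum.elim
    (fun O : N B x ⧸ Z => sg hA x O.out 0 O.out.2 • ω₁) fun O => sg hA x 0 0 (map_zero _) • g O • ω₂) (by
      have k : ∀ O, ¬ QRel hA x ω₁ (g O • ω₂) := fun O e => by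
        have := finrank_le_of_perp hA hB (x := x) (y := x) (finrank_span_singleton hx).le fun v a _ =>
          hK v (K_eq_of_qRel e ▸ apply_inv (g O) v ▸ (mem_K_smul (hg O)).2 (hK' _ (by
            rw [← (g O).2, hg, apply_inv, a])))
        omega
      rintro (i | i) (j | j) e
      · exact congrArg _ (i.out_eq.symm.trans (((QuotientAddGroup.eq_iff_sub_mem (N := Z)).2
          (hK _ ((rel_aux e).2 rfl))).trans j.out_eq))
      · exact absurd (rel_aux e).1 (k j)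
      · exact absurd ((QRel hA x).symm (rel_aux e).1) (k i)
      · exact congrArg _ (Subtype.ext (by rw [← hg', ← hg', Quotient.sound (rel_aux e).1]))) (by
      rintro (i | i)
      · exact (A_smul (sg_apply_self _)).ge hw
      · exact (A_smul (sg_apply_self _)).ge ((A_smul (hg i)).ge hw'))
  rw [Nat.card_sum] at h2
  refine le_trans (Nat.add_le_add_right (Nat.le_of_mul_le_mul_right (c := q) ?_ (hq ▸ Nat.card_pos)) _) h2
  rw [mul_comm, ← card_N hB hx hq hn, Z.card_eq_card_quotient_mul_card_addSubgroup, ← hq,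
    ← card_span (F := F) hx]
  exact Nat.mul_le_mul_left _ (Nat.card_le_card_of_injective (β := F ∙ x) (fun v => ⟨v.1.1, v.2⟩)
    fun _ _ e => Subtype.ext (Subtype.ext (congrArg Subtype.val e :)))

omit hB hn [FiniteDimensional F V] in
theorem exists_sq_ne (h : 4 ≤ q) : ∃ b : F, b ≠ 0 ∧ b ^ 2 ≠ 1 := by
  classical
  haveI := Fintype.ofFinite F
  obtain ⟨b, -, hb⟩ := Finset.exists_mem_notMem_of_card_lt_card (s := ({0, 1, -1} : Finset F))
    (t := Finset.univ) (Finset.card_le_three.trans_lt (by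
      rwa [Finset.card_univ, ← Nat.card_eq_fintype_card, hq]))
  exact ⟨b, by simpa [not_or] using hb⟩

variable (hβ : (q - 1) * Nat.card Ω + 1 < q ^ 2 * q ^ (2 * n))
include hβ

theorem exists_invariant (h1 : 1 ≤ n) (h3 : 4 ≤ q ∨ (2 : F) ≠ 0 ∧ 2 ≤ n) (hP : ¬ P hA (stabilizer _ ω) x) :
    ∃ U : Submodule F V, U ≠ ⊥ ∧ (∀ u ∈ U, ∀ v ∈ U, B u v = 0) ∧ (finrank F U = 1 ∨ n = 1) ∧
      ∀ g ∈ stabilizer (isom B) ω, ∀ u ∈ U, g.1 u ∈ U := by
  have k1 : ∀ x y, n = 1 → ¬ P hA (stabilizer _ ω) x → B x y = 0 → y ∉ F ∙ x →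
      (∀ c : F, c • y ∈ K hA (stabilizer _ ω) x) →
      (∀ g : isom B, g.1 x = x → g.1 y ∈ span F {x, y} → QRel hA x ω (g • ω)) →
      ((2 : F) = 0 → A hA x ω = ⊤) → ∃ U : Submodule F V, U ≠ ⊥ ∧ (∀ u ∈ U, ∀ v ∈ U, B u v = 0) ∧
        (finrank F U = 1 ∨ n = 1) ∧ ∀ g ∈ stabilizer (isom B) ω, ∀ u ∈ U, g.1 u ∈ U :=
      fun x y a1 a2 a3 a4 a5 a6 a7 => by
    obtain ⟨b, hb, hb'⟩ := exists_sq_ne hq (h3.resolve_right (by omega))
    obtain ⟨y, b1, b2, b3, b4⟩ := exists_line hB (by omega) hb hb' a2 a3 a4 a5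
      (fun g c1 c2 => cover (a6 g c1 c2)) fun e c => eq_zero_of_A (a7 e)
    exact ⟨span F {v | P hA (stabilizer _ ω) v}, fun e => b1 (e.le (subset_span b3)), fun u hu v hv =>
      span_le (p := LinearMap.ker (B u)).2 (fun v hv => hA.isRefl _ _ (span_le (p := LinearMap.ker (B v)).2
        (fun u hu => perp_of_line hB (by omega) hb (by rintro rfl; simp at hb') a2 b1 b2 b3 b4 hv hu) hu)) hv,
      Or.inr a1, fun g hg u hu => span_le (p := comap (g.1 : V →ₗ[F] V) _).2 (fun u hu =>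
        mem_comap.2 (subset_span (P.map hu hg))) hu⟩
  suffices h : (∀ x, ¬ P hA (stabilizer _ ω) x → ∀ u ∈ K hA (stabilizer _ ω) x, u ∈ F ∙ x) →
      ∀ x, ¬ P hA (stabilizer _ ω) x → ∀ u, B x u = 0 → ∃ c : F, P hA (stabilizer _ ω) (u + c • x) by
    by_cases hr : ∀ x, ¬ P hA (stabilizer _ ω) x → ∀ u ∈ K hA (stabilizer _ ω) x, u ∈ F ∙ x
    · obtain ⟨z, a1, a2⟩ := exists_point hB (by omega) hr (h hr) hP
      refine ⟨F ∙ z, by simpa, fun u hu v hv => ?_, Or.inl (finrank_span_singleton a1), fun g hg u hu => ?_⟩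
      all_goals obtain ⟨c, rfl⟩ := mem_span_singleton.1 hu
      · obtain ⟨c, rfl⟩ := mem_span_singleton.1 hv
        simp [hA.self_eq_zero]
      · rw [map_smul]; exact smul_mem _ c (a2 g hg)
    rw [not_forall₂] at hr
    obtain ⟨x, hP, hr⟩ := hr
    by_cases h2 : (2 : F) = 0
    swap
    · obtain ⟨a1, y, a2, a3, a4, a5⟩ := (odd_K hB hq hn hβ h2 h1 hP).resolve_left hr
      exact k1 x y a1 hP a2 a3 a4 a5 fun e => absurd e h2
    have hq4 := h3.resolve_right fun e => e.1 h2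
    obtain ⟨b, hb, hb'⟩ := exists_sq_ne hq hq4
    replace hb' : b ≠ 1 := by rintro rfl; simp at hb'
    haveI := CharTwo.of_one_ne_zero_of_two_eq_zero one_ne_zero h2
    have hs : ∀ s : F, ∃ μ, μ ^ 2 = s := fun s => (frobeniusEquiv F 2).surjective s
    by_cases h4 : ∃ x y, ¬ P hA (stabilizer _ ω) x ∧ B x y = 0 ∧ y ∉ F ∙ x ∧
      (∀ u, B x u = 0 → B y u = 0 → u ∈ K hA (stabilizer _ ω) x) ∧
      (∀ g : isom B, g.1 x = x → g.1 y ∈ span F {x, y} → QRel hA x ω (g • ω)) ∧ A hA x ω = ⊤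
    · obtain ⟨x, y, a1, a2, a3, a4, a5, a6⟩ := h4
      refine k1 x y (by_contra fun e => hb' ?_) a1 a2 a3 (fun c => a4 _ (by simp [a2])
        (by simp [hA.self_eq_zero])) a5 fun _ => a6
      obtain ⟨u, u', b1, b2, b3, b4, b5⟩ := exists_ne hA hB (by omega) x y
      have k : ∀ c β : F, E hA (stabilizer _ ω) x ((c * β) • u) (c * β ^ 2) := fun c β => by
        obtain ⟨z, c1, c2⟩ := cover (a5 (tv hA u c) (tv_apply_of b1) (by
          rw [tv_apply_of b2]; exact subset_span (by simp)))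
        simpa [b5] using bad_of h2 (a4 ((β / B u' u) • u') (by simp [b3]) (by simp [b4])) (map_zero _) b1
          (map_zero _) (inv_mem c1) (c := c) (c' := 0) (by
            simpa [tv_inv, CharTwo.neg_eq] using inv_mem c2)
      exact eq_of_bad hs a1 hb one_ne_zero (k b) (k 1)
    have k2 : ∀ x, ¬ P hA (stabilizer _ ω) x → _ := fun x hP =>
      (even_K hB hq hn hβ hs h2 h1 hP).imp_right fun h => h.resolve_right fun ⟨y, h⟩ => h4 ⟨x, y, hP, h⟩
    refine absurd (p_of_full hB (by omega) h2 hs hb hb' fun y hy => (k2 y hy).resolve_left fun e => ?_) hP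
    obtain ⟨w, hw0, hw⟩ := exists_mem_A hP
    obtain ⟨w', hw0', hw'⟩ := exists_mem_A hy
    have hx := ne_zero_of_not_p hP
    obtain ⟨g, a, a1, a2, a3⟩ := exists_mem_A_smul hB hs (ne_zero_of_not_p hy) hw0' hw' hx hw0
    have a4 := add_le_m hB hq hn h1 hx (K_le_smul a2 a1 e) ((k2 x hP).resolve_left hr) a3 hw
    have a5 := lt_card_J hB hq hn h2 hs hb hb' hP ((k2 x hP).resolve_left hr)
    have a6 := Root.mul_m_le (R := root hA x) (Ω := Ω) rfl (exists_conj hB hs hx) hw0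
    obtain ⟨Y, hY⟩ := Nat.exists_eq_add_of_le' (Nat.one_le_pow (2 * n) q (by omega))
    obtain ⟨j, rfl⟩ := Nat.exists_eq_add_of_le' hq4
    rw [hq] at a6
    rw [hY] at a4 a5 hβ
    rw [show j + 4 - 1 = j + 3 from rfl] at a5 hβ
    rw [Nat.add_sub_cancel] at a5
    nlinarith [Nat.mul_le_mul_left ((j + 3) * (j + 4)) a4, Nat.mul_le_mul_left (j + 4) a5,
      Nat.mul_le_mul_left (j + 3) a6]
  intro hr x hP u hu
  have hx := ne_zero_of_not_p hP
  obtain ⟨w, hw0, hw⟩ := exists_mem_A hP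
  have k : ∀ {d : V} {γ h} {s : isom B} {v}, B x v = 0 → ∀ a c : F, s.1 v = a • v + c • x →
      ∃ c : F, (sg hA x d γ h * s).1 v = a • v + c • x := fun hv a c e => ⟨_, by
    rw [isom_mul_apply, e, sg_apply_of _ (by simp [hA.isRefl _ _ hv, hA.self_eq_zero]), add_assoc, ← add_smul]⟩
  by_cases h2 : (2 : F) = 0
  · obtain ⟨b, hb, hb'⟩ := exists_sq_ne hq (h3.resolve_right fun e => e.1 h2)
    haveI := CharTwo.of_one_ne_zero_of_two_eq_zero one_ne_zero h2
    have hs : ∀ s : F, ∃ μ, μ ^ 2 = s := fun s => (frobeniusEquiv F 2).surjective s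
    obtain ⟨s, a1, a2⟩ := exists_torus hA hB hx hb
    obtain ⟨_, ⟨d, γ, a3, rfl⟩, a4⟩ := cover (even_cov hB hq hn hβ hs hx (hr x hP) (K_le_smul a1 hb (hr x hP))
      hw0 hw ((mem_A_smul a1 hb).2 ((even_top hB hq hn hβ hs hP (hr x hP)).ge trivial)))
    exact exists_partner hB hP (hr x hP) (fun g hg => cover (even_cov hB hq hn hβ hs hx (hr x hP)
      (K_le_smul (a := 1) (by rw [hg, one_smul]) one_ne_zero (hr x hP)) hw0 hw ((A_smul hg).ge hw))) a4
      (ε := 1) (by rw [isom_mul_apply, a1, map_smul, sg_apply_self]) (fun v hv => (a2 v hv).elim fun c e =>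
        k hv 1 c (by rwa [one_smul])) (by rintro rfl; simp at hb') (Or.inl ⟨b, hb, hb'⟩) hu
  have k2 : ∀ g : isom B, g.1 x = x → _ := fun g hg => cover (odd_cov hB hq hn hβ h2 hx (hr x hP)
    (K_le_smul (a := 1) (by rw [hg, one_smul]) one_ne_zero (hr x hP)) hw0 hw ((A_smul hg).ge hw))
  obtain ⟨s, a1, a2⟩ := exists_torus hA hB hx (neg_ne_zero.2 one_ne_zero)
  have a5 : (negOne B * s).1 x = x := by simp [isom_mul_apply, a1]
  obtain ⟨_, ⟨d, γ, a3, rfl⟩, a4⟩ := k2 _ a5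
  exact exists_partner hB hP (hr x hP) k2 a4 (a := 1) (ε := -1) (by
    rw [isom_mul_apply, a5, sg_apply_self, one_smul]) (fun v hv => (a2 v hv).elim fun c e =>
      k hv (-1) (-c) (by rw [isom_mul_apply, e]; simp [add_comm])) (fun e => h2 (by linear_combination e))
    (h3.imp (exists_sq_ne hq) fun e => ⟨h2, by omega⟩) hu

omit hq hn hβ in
variable (hA) in
include hA in
theorem card_le_of_invariant {U : Submodule F V} (hU : ∀ u ∈ U, ∀ v ∈ U, B u v = 0)
    (h : ∀ g ∈ stabilizer (isom B) ω, ∀ u ∈ U, g.1 u ∈ U) :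
    Nat.card {W : Submodule F V // finrank F W = finrank F U ∧ ∀ u ∈ W, ∀ v ∈ W, B u v = 0} ≤
      Nat.card Ω := by
  choose g hg hg' using fun W : {W : Submodule F V // finrank F W = finrank F U ∧
    ∀ u ∈ W, ∀ v ∈ W, B u v = 0} => exists_isom_map_eq_of_isotropic hA hB U W hU W.2.2 W.2.1.symm
  refine Nat.card_le_card_of_injective (fun W => (⟨g W, hg W⟩ : isom B) • ω) fun W W' e =>
    Subtype.ext (eq_of_le_of_finrank_eq ?_ (W.2.1.trans W'.2.1.symm))
  rw [← hg', ← hg']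
  rintro _ ⟨u, hu, rfl⟩
  exact ⟨_, h ((⟨g W', hg W'⟩ : isom B)⁻¹ * ⟨g W, hg W⟩) (by
    rw [mem_stabilizer_iff, mul_smul, inv_smul_eq_iff]; exact e) u hu, (g W').apply_symm_apply _⟩

omit hβ in
variable (hA) in
include hA in
theorem card_points : (q - 1) * Nat.card {W : Submodule F V // finrank F W = 1 ∧
    ∀ u ∈ W, ∀ v ∈ W, B u v = 0} + 1 = q ^ 2 * q ^ (2 * n) := by
  have h := card_isotropic_mul hA hB (m := 1) (by omega)
  simp only [Finset.prod_range_one, pow_one, pow_zero, hq, hn, Nat.sub_zero] at h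
  rw [mul_comm, h, Nat.sub_add_cancel (Nat.one_le_pow _ _ (hq ▸ Nat.card_pos))]; ring

omit hβ in
variable (hA) in
include hA in
theorem le_card (h1 : 1 ≤ n) (h3 : 4 ≤ q ∨ (2 : F) ≠ 0 ∧ 2 ≤ n) (hω : stabilizer (isom B) ω ≠ ⊤) :
    q ^ 2 * q ^ (2 * n) ≤ (q - 1) * Nat.card Ω + 1 := not_lt.1 fun hβ => by
  obtain ⟨x, hP⟩ : ∃ x, ¬ P hA (stabilizer _ ω) x := not_forall.1 fun e => hω (eq_top_of_tv_mem hA hB _ e)
  obtain ⟨U, a1, a2, a3, a4⟩ := exists_invariant hB hq hn hβ h1 h3 hP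
  have a5 := Nat.mul_le_mul_left (q - 1) (card_le_of_invariant hA hB a2 a4)
  by_cases e : finrank F U = 1
  · rw [e] at a5; have := card_points hA hB hq hn; omega
  obtain rfl := a3.resolve_left e
  have a6 : finrank F U = 2 := by
    have := finrank_mono (show U ≤ B.orthogonal U from fun u hu v hv => a2 v hv u hu)
    have := LinearMap.BilinForm.finrank_orthogonal hB U
    have := finrank_eq_zero.not.2 a1
    omega
  have h := card_isotropic_mul hA hB (m := 2) (by omega)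
  simp only [Finset.prod_range_succ, Finset.prod_range_zero, pow_one, pow_zero, hq, hn, one_mul] at h
  rw [a6] at a5
  obtain ⟨j, rfl⟩ := Nat.exists_eq_add_of_le' (show 2 ≤ q from hq ▸ Finite.one_lt_card)
  rw [show (j + 2) ^ 2 - 1 = (j + 1) * (j + 3) from Nat.sub_eq_of_eq_add (by ring),
    show (j + 2) ^ 2 - (j + 2) = (j + 1) * (j + 2) from Nat.sub_eq_of_eq_add (by ring),
    show (j + 2) ^ (2 * 1 + 2 - 1) - (j + 2) = (j + 1) * (j + 2) * (j + 3) from
      Nat.sub_eq_of_eq_add (by ring)] at h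
  rw [show j + 2 - 1 = j + 1 from rfl] at a5 hβ
  have a7 := Nat.eq_of_mul_eq_mul_right (m := (j + 1) * (j + 2) * (j + 3)) (by positivity)
    (Eq.trans (b := _) (by ring) h : (j + 1) * Nat.card {W : Submodule F V // finrank F W = 2 ∧
      ∀ u ∈ W, ∀ v ∈ W, B u v = 0} * _ = _)
  have : (j + 2) ^ 2 * (j + 2) ^ (2 * 1) = (j + 2) ^ (2 * 1 + 2 - 0) := by ring
  omega

omit hβ hB hn in
theorem min_index_psp (h1 : 1 ≤ n) (h3 : 4 ≤ q ∨ (2 : F) ≠ 0 ∧ 2 ≤ n) :
    (∀ H : Subgroup (PSp (n + 1) F), H ≠ ⊤ → (q ^ (2 * (n + 1)) - 1) / (q - 1) ≤ H.index) ∧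
      ∃ H : Subgroup (PSp (n + 1) F), H.index = (q ^ (2 * (n + 1)) - 1) / (q - 1) := by
  have hA := bil_isAlt (Fin (n + 1)) F
  have hB := bil_nondegenerate (Fin (n + 1)) F
  have hn : finrank F (Fin (n + 1) ⊕ Fin (n + 1) → F) = 2 * n + 2 := by simp; ring
  haveI := Cfsg.Lib.Unitary.finite_linearEquiv (F := F) (V := Fin (n + 1) ⊕ Fin (n + 1) → F)
  obtain ⟨U, h4, h5⟩ := exists_isotropic hA hB (m := 1) (by omega)
  have h6 : q ^ (2 * (n + 1)) = q ^ 2 * q ^ (2 * n) := by ring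
  refine min_index_congr (Cfsg.Lib.Unitary.quotCenterCongr (spEquiv _ F).symm) (min_index_of_surjective
    (QuotientGroup.mk' _) (QuotientGroup.mk'_surjective _) (fun H hH => Nat.div_le_of_le_mul ?_)
    (L := stabilizer _ U) (fun g hg => ?_) ?_)
  · have := le_card hA hB hq hn h1 h3 (ω := (QuotientGroup.mk 1 : _ ⧸ H))
      (by rwa [stabilizer_quotient])
    rw [h6, Subgroup.index]; omega
  · rcases (mem_center_iff hA hB g).1 ((QuotientGroup.eq_one_iff g).1 hg) with rfl | rfl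
    · exact one_mem _
    · exact (Submodule.map_neg U LinearMap.id).trans (map_id _)
  · rw [h6, ← card_points hA hB hq hn, Nat.add_sub_cancel, Nat.mul_div_cancel_left _
      (Nat.sub_pos_of_lt (hq ▸ Finite.one_lt_card)), index_stabilizer]
    refine congrArg Set.ncard (Set.ext fun W => ⟨?_, fun h => ?_⟩)
    · rintro ⟨a, rfl⟩
      refine ⟨(a.1.finrank_map_eq U).trans h4, ?_⟩
      rintro _ ⟨u, hu, rfl⟩ _ ⟨v, hv, rfl⟩
      exact (a.2 u v).trans (h5 u hu v hv)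
    · obtain ⟨a, ha, e⟩ := exists_isom_map_eq_of_isotropic hA hB U W h5 h.2 (h4.trans h.1.symm)
      exact ⟨⟨a, ha⟩, e⟩

end Cfsg.Lib.MinDeg.Sp
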