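import Cfsg.Agent.Lib.MinDeg.Heis
import Cfsg.Agent.Lib.Symp.Siegel
import Cfsg.Agent.Lib.Symp.Count

/-!
# Minimal degrees of symplectic groups: counting
-/

set_option autoImplicit false

namespace Cfsg.Lib.MinDeg.Sp

open Module Submodule Cfsg.Lib.Symp MulAction

variable {F V : Type*} [Field F] [AddCommGroup V] [Module F V] {B : LinearMap.BilinForm F V}
  (hA : B.IsAlt) {H : Subgroup (isom B)} {x y u u' v : V} {a c γ γ' : F} {g : isom B}

variable (H) in
/-- The elements of the unipotent radical at `x` in `H`. -/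
def E (x u : V) (γ : F) : Prop := ∃ h, sg hA x u γ h ∈ H

variable (H) in
/-- The centres of root groups in `H`. -/
def P (x : V) : Prop := ∀ c, tv hA x c ∈ H

variable {hA}

theorem sg_congr {x' : V} {h h'} (e : ∀ v, B v x • u + (B v u + γ * B v x) • x =
    B v x' • u' + (B v u' + γ' * B v x') • x') : sg hA x u γ h = sg hA x' u' γ' h' :=
  isom_ext fun v => by rw [sg_apply, sg_apply, add_assoc, add_assoc, e]

theorem E.perp (h : E hA H x u γ) : B x u = 0 := h.1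

theorem E.congr (h : E hA H x u γ) (e : u = u') (e' : γ = γ') : E hA H x u' γ' := e ▸ e' ▸ h

theorem E.mul (h : E hA H x u γ) (h' : E hA H x u' γ') : E hA H x (u + u') (γ + γ' + B u' u) :=
  ⟨_, sg_mul hA x u u' γ γ' h.1 h'.1 ▸ mul_mem h.2 h'.2⟩

theorem sg_inv (h : B x u = 0) : (sg hA x u γ h)⁻¹ = sg hA x (-u) (-γ) (by simp [h]) :=
  inv_eq_of_mul_eq_one_right (by
    rw [sg_mul]; exact isom_ext fun x => by simp [sg_apply, hA.self_eq_zero])

theorem E.neg (h : E hA H x u γ) : E hA H x (-u) (-γ) := ⟨_, sg_inv h.1 ▸ inv_mem h.2⟩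

theorem E.sub (h : E hA H x u γ) (h' : E hA H x u' γ') : E hA H x (u - u') (γ - γ' - B u' u) :=
  (h.mul h'.neg).congr (by abel) (by simp; ring)

theorem e_smul_iff : E hA H x (c • x) γ ↔ tv hA x (γ + 2 * c) ∈ H :=
  ⟨fun h => sg_smul hA x c γ h.1 ▸ h.2, fun h => ⟨by simp [hA.self_eq_zero], by rwa [sg_smul]⟩⟩

theorem e_zero_iff : E hA H x 0 γ ↔ tv hA x γ ∈ H := by
  simpa using e_smul_iff (hA := hA) (H := H) (x := x) (c := 0) (γ := γ)

theorem E.tv (h : E hA H x u γ) (h' : E hA H x u γ') : tv hA x (γ - γ') ∈ H :=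
  e_zero_iff.1 ((h.sub h').congr (sub_self u) (by simp [hA.self_eq_zero]))

theorem E.comm (h : E hA H x u γ) (h' : E hA H x u' γ') : Symp.tv hA x (2 * B u' u) ∈ H := by
  convert (h.mul h').tv ((h'.mul h).congr (add_comm _ _) rfl) using 2
  rw [← hA.neg_eq u' u]; ring

theorem conj_sg' (hg : g.1 x = a • y) (h : B x u = 0) (h') :
    g * sg hA x u γ h * g⁻¹ = sg hA y (a • g.1 u) (a ^ 2 * γ) h' := by
  rw [conj_sg]
  refine sg_congr fun v => ?_
  simp only [hg, map_smul, smul_eq_mul]; module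

theorem perp_smul (hg : g.1 x = a • y) (h : B x u = 0) : B y (a • g.1 u) = 0 := by
  rw [← h, ← g.2 x, hg]; simp

theorem E.conj (h : E hA H x u γ) (hg : g ∈ H) (e : g.1 x = a • y) :
    E hA H y (a • g.1 u) (a ^ 2 * γ) :=
  ⟨perp_smul e h.1, conj_sg' (hA := hA) e h.1 _ ▸ mul_mem (mul_mem hg h.2) (inv_mem hg)⟩

theorem E.conj₁ (h : E hA H x u γ) (hg : g ∈ H) (e : g.1 x = y) : E hA H y (g.1 u) γ := by
  simpa using h.conj (a := 1) hg (by rw [e, one_smul])

theorem tv_conj (h : tv hA x c ∈ H) (hg : g ∈ H) : tv hA (g.1 x) c ∈ H :=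
  conj_tv hA g x c ▸ mul_mem (mul_mem hg h) (inv_mem hg)

theorem P.map (h : P hA H x) (hg : g ∈ H) : P hA H (g.1 x) := fun c => tv_conj (h c) hg

theorem P.smul (h : P hA H x) (a : F) : P hA H (a • x) := fun c => tv_smul hA x a c ▸ h _

theorem p_zero : P hA H 0 := fun c => by simp

theorem P.of_smul (h : P hA H (a • x)) (ha : a ≠ 0) : P hA H x := by
  simpa [ha] using h.smul a⁻¹

theorem ne_zero_of_not_p (h : ¬ P hA H x) : x ≠ 0 := by rintro rfl; exact h p_zero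

variable (hA H) in
/-- The directions of the elements of the unipotent radical in `H`. -/
def K (x : V) : AddSubgroup V where
  carrier := {u | ∃ γ, E hA H x u γ}
  zero_mem' := ⟨0, e_zero_iff.2 (by simp)⟩
  add_mem' := fun ⟨_, h⟩ ⟨_, h'⟩ => ⟨_, h.mul h'⟩
  neg_mem' := fun ⟨_, h⟩ => ⟨_, h.neg⟩

theorem smul_self_mem_K (c : F) : c • x ∈ K hA H x := ⟨-(2 * c), e_smul_iff.2 (by simp)⟩

theorem tv_apply_of (h : B v u = 0) : (tv hA u c).1 v = v := by simp [tv_apply, h]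

theorem tv_apply_self : (tv hA u c).1 u = u := tv_apply_of (hA.self_eq_zero u)

theorem sg_apply_of (h) (hv : B v x = 0) : (sg hA x u γ h).1 v = v + B v u • x := by
  simp [sg_apply, hv]

theorem sg_apply_self (h) : (sg hA x u γ h).1 x = x := by simp [sg_apply, hA.self_eq_zero, h]

theorem rad_apply_self (hg : g ∈ pointRad hA x) : g.1 x = x := by
  obtain ⟨_, _, _, rfl⟩ := hg; exact sg_apply_self _

theorem inv_apply (hg : g.1 x = y) : g⁻¹.1 y = x := (LinearEquiv.symm_apply_eq _).2 hg.symm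

theorem apply_inv (g : isom B) (x : V) : g.1 (g⁻¹.1 x) = x := g.1.apply_symm_apply x

variable {Ω : Type*} [MulAction (isom B) Ω] {ω ω' : Ω}

theorem E.smul (h : E hA (stabilizer _ ω) x u γ) (e : g.1 x = a • y) :
    E hA (stabilizer _ (g • ω)) y (a • g.1 u) (a ^ 2 * γ) :=
  ⟨perp_smul e h.1, conj_sg' (hA := hA) e h.1 _ ▸ (by
    rw [mem_stabilizer_iff, mul_smul, mul_smul, inv_smul_smul, h.2])⟩

theorem e_smul_iff₁ (e : g.1 x = y) :
    E hA (stabilizer _ (g • ω)) y (g.1 u) γ ↔ E hA (stabilizer _ ω) x u γ :=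
  ⟨fun h => by simpa using h.smul (a := 1) (g := g⁻¹) (by rw [inv_apply e, one_smul]),
    fun h => by simpa using h.smul (a := 1) (by rw [e, one_smul])⟩

theorem p_smul_iff : P hA (stabilizer _ (g • ω)) (g.1 x) ↔ P hA (stabilizer _ ω) x :=
  forall_congr' fun c => by
    rw [← e_zero_iff, ← e_zero_iff, ← e_smul_iff₁ (g := g) (ω := ω) (x := x) rfl, map_zero]

theorem mem_K_smul (e : g.1 x = y) :
    g.1 u ∈ K hA (stabilizer _ (g • ω)) y ↔ u ∈ K hA (stabilizer _ ω) x :=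
  exists_congr fun _ => e_smul_iff₁ e

theorem K_le_smul (e : g.1 x = a • y) (ha : a ≠ 0) (h : ∀ u ∈ K hA (stabilizer _ ω) x, u ∈ F ∙ x) :
    ∀ u ∈ K hA (stabilizer _ (g • ω)) y, u ∈ F ∙ y := fun u ⟨_, hu⟩ => by
  have h1 := hu.smul (g := g⁻¹) (a := a⁻¹) (y := x) (by
    rw [eq_inv_smul_iff₀ ha, ← map_smul, inv_apply e])
  rw [inv_smul_smul] at h1
  obtain ⟨c, hc⟩ := mem_span_singleton.1 (h _ ⟨_, h1⟩)
  rw [eq_inv_smul_iff₀ ha, eq_comm] at hc
  rw [← inv_apply hc, inv_inv, map_smul, map_smul, e]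
  exact smul_mem _ _ (smul_mem _ _ (smul_mem _ _ (mem_span_singleton_self y)))

variable (hA) in
/-- Points in the same orbit of the unipotent radical. -/
abbrev QRel (x : V) : Setoid Ω := orbitRel (pointRad hA x) Ω

theorem qRel_iff : QRel hA x ω ω' ↔ ∃ y ∈ pointRad hA x, y • ω' = ω :=
  ⟨fun ⟨y, h⟩ => ⟨y.1, y.2, h⟩, fun ⟨y, h, h'⟩ => ⟨⟨y, h⟩, h'⟩⟩

theorem cover (h : QRel hA x ω (g • ω)) : ∃ y ∈ pointRad hA x, y * g ∈ stabilizer _ ω := by
  obtain ⟨y, h, h'⟩ := qRel_iff.1 h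
  exact ⟨y, h, (mul_smul _ _ _).trans h'⟩

theorem qRel_smul (e : g.1 x = a • y) (h : QRel hA x ω ω') : QRel hA y (g • ω) (g • ω') := by
  obtain ⟨_, ⟨u, γ, h', rfl⟩, rfl⟩ := qRel_iff.1 h
  exact qRel_iff.2 ⟨_, ⟨_, _, _, conj_sg' (γ := γ) e h' (perp_smul e h')⟩, by
    rw [mul_smul, mul_smul, inv_smul_smul]⟩

theorem qRel_of_smul (e : g.1 x = a • y) (ha : a ≠ 0) (h : QRel hA y (g • ω) (g • ω')) :
    QRel hA x ω ω' := by
  simpa using qRel_smul (g := g⁻¹) (a := a⁻¹) (y := x) (by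
    rw [eq_inv_smul_iff₀ ha, ← map_smul, inv_apply e]) h

theorem K_eq_of_qRel (h : QRel hA x ω ω') :
    K hA (stabilizer _ ω) x = K hA (stabilizer _ ω') x := by
  obtain ⟨_, ⟨u, γ, h', rfl⟩, rfl⟩ := qRel_iff.1 h
  refine AddSubgroup.ext fun w => ?_
  by_cases hw : B x w = 0
  · rw [← mem_K_smul (sg_apply_self h') (ω := ω'), sg_apply_of h' (hA.isRefl _ _ hw),
      add_mem_cancel_right (smul_self_mem_K _)]
  · exact iff_of_false (fun ⟨_, e⟩ => hw e.1) fun ⟨_, e⟩ => hw e.1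

variable (hA) in
/-- The group of transvections with centre `x`. -/
def root (x : V) : Root (isom B) F := ⟨⊤, tv hA x, fun _ _ _ _ => (tv_mul hA x _ _).symm⟩

theorem conj_root (hg : g.1 x = a • y) {s : F} {hs} (ha : a ^ 2 = s) :
    Root.Conj (root hA x) (root hA y) g (AddAut.mulLeft (Units.mk0 s hs)) :=
  ⟨fun _ => Iff.rfl, fun t _ => by
    change g * tv hA x t * g⁻¹ = tv hA y (s * t)
    rw [conj_tv, hg, tv_smul, ha]⟩

theorem conj_root_one (hg : g.1 x = x) : Root.Conj (root hA x) (root hA x) g (AddEquiv.refl _) :=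
  ⟨fun _ => Iff.rfl, fun t _ => by
    change g * tv hA x t * g⁻¹ = tv hA x t
    rw [conj_tv, hg]⟩

variable [Finite F]

variable (hA) in
/-- The annihilator of the stabilizer. -/
noncomputable abbrev A (x : V) (ω : Ω) : AddSubgroup F := (root hA x).A (LinearMap.mul F F) ω

variable (hA Ω) in
/-- The multiplicity of a character. -/
noncomputable abbrev m (x : V) (w : F) : ℕ := (root hA x).m Ω (LinearMap.mul F F) w

variable (hA Ω) in
/-- The number of orbits with a property. -/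
noncomputable abbrev mp (x : V) (p : AddSubgroup F → Prop) : ℕ :=
  (root hA x).mp Ω (LinearMap.mul F F) p

theorem psi_of_mem_A {w : F} (hw : w ∈ A hA x ω) (h : tv hA x c ∈ stabilizer _ ω) :
    psi F (w * c) = 1 := hw c ⟨trivial, h⟩

theorem mem_A_smul (hg : g.1 x = a • y) (ha : a ≠ 0) {w : F} :
    w ∈ A hA y (g • ω) ↔ a ^ 2 * w ∈ A hA x ω :=
  (conj_root (hs := pow_ne_zero 2 ha) hg rfl).mem_A fun u _ => by simp [mul_assoc, mul_left_comm]

theorem A_smul (hg : g.1 x = y) : A hA y (g • ω) = A hA x ω :=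
  AddSubgroup.ext fun w =>
    (mem_A_smul (a := 1) (by rw [hg, one_smul]) one_ne_zero).trans (by rw [one_pow, one_mul])

theorem A_eq_of_qRel (h : QRel hA x ω ω') : A hA x ω = A hA x ω' := by
  obtain ⟨_, h', rfl⟩ := qRel_iff.1 h
  exact A_smul (rad_apply_self h')

theorem exists_mem_A (hP : ¬ P hA (stabilizer _ ω) x) : ∃ w ≠ 0, w ∈ A hA x ω := by
  by_contra! e
  have h1 := card_ann_mul Root.mul_nd ((root hA x).stab ω)
  rw [show ann _ _ = ⊥ from eq_bot_iff.2 fun w hw => by_contra fun e' => e w e' hw,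
    AddSubgroup.card_bot, one_mul, AddSubgroup.card_eq_iff_eq_top] at h1
  exact hP fun c => (h1.ge trivial).2

theorem not_p_of_mem_A {w : F} (hw : w ≠ 0) (h : w ∈ A hA x ω) : ¬ P hA (stabilizer _ ω) x :=
  fun e => hw (eq_zero_of_psi fun c => mul_comm w c ▸ psi_of_mem_A h (e c))

theorem eq_zero_of_A (h : A hA x ω = ⊤) (e : tv hA x c ∈ stabilizer _ ω) : c = 0 :=
  (Root.stab_eq_bot Root.mul_nd h).le ⟨trivial, e⟩

variable (B) in
/-- The hyperplane perpendicular to `x`. -/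
abbrev N (x : V) : Submodule F V := LinearMap.ker (B x)

omit [Finite F] in
theorem rel_aux {h1 h2} (h : (root hA x).rel Ω (sg hA x u 0 h1 • ω) (sg hA x u' 0 h2 • ω')) :
    QRel hA x ω ω' ∧ (ω = ω' → u - u' ∈ K hA (stabilizer _ ω') x) := by
  obtain ⟨t, -, e⟩ := h
  change _ = tv hA x t • _ at e
  rw [← eq_inv_smul_iff, show tv hA x t = sg hA x 0 t (map_zero _) from isom_ext fun v => by
    simp [tv_apply, sg_apply], sg_inv, ← mul_smul, ← mul_smul, sg_mul, sg_mul] at e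
  exact ⟨qRel_iff.2 ⟨_, ⟨_, _, _, rfl⟩, e.symm⟩, by
    rintro rfl; exact neg_mem_iff.1 ⟨_, E.congr ⟨_, e.symm⟩ (by simp; abel) rfl⟩⟩

variable [Finite Ω] [FiniteDimensional F V]

theorem family {ι : Type*} (ω : ι → Ω) (hr : ∀ i j, QRel hA x (ω i) (ω j) → i = j) {k : ℕ}
    (hk : ∀ i, Nat.card (K hA (stabilizer _ (ω i)) x) ≤ k) {p : AddSubgroup F → Prop}
    (hp : ∀ i, p (A hA x (ω i))) : Nat.card ι * Nat.card (N B x) ≤ k * mp hA Ω x p := by
  haveI : Finite V := Module.finite_of_finite F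
  refine Root.family (E := fun p : N B x => sg hA x p 0 p.2) (fun p => conj_root_one (sg_apply_self _))
    ω (fun i => (K hA (stabilizer _ (ω i)) x).comap (N B x).subtype.toAddMonoidHom)
    (fun i => le_trans (Nat.card_le_card_of_injective (β := K hA (stabilizer _ (ω i)) x)
      (fun v => ⟨v.1.1, v.2⟩) fun _ _ e => Subtype.ext (Subtype.ext (congrArg Subtype.val e :))) (hk i)) (fun i j p p' e => ?_) hp
  obtain rfl := hr _ _ (rel_aux e).1
  exact ⟨rfl, (rel_aux e).2 rfl⟩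

omit [Finite Ω] in
theorem card_N (hB : B.Nondegenerate) (hx : x ≠ 0) {q n : ℕ} (hq : Nat.card F = q)
    (hn : finrank F V = 2 * n + 2) : Nat.card (N B x) = q * q ^ (2 * n) := by
  have h1 := LinearMap.finrank_range_add_finrank_ker (B x)
  rw [LinearMap.range_eq_top.2 (LinearMap.surjective_iff_ne_zero.2 fun e => hx
    (hB.1 x fun v => by simp [e])), finrank_top, finrank_self] at h1
  rw [natCard_eq_pow_finrank (K := F), hq, ← pow_succ']
  congr 1; change finrank F (LinearMap.ker (B x)) = _; omega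

omit [Finite Ω] [FiniteDimensional F V] in
theorem card_span (hx : x ≠ 0) : Nat.card (F ∙ x) = Nat.card F :=
  (Nat.card_congr (LinearEquiv.toSpanNonzeroSingleton F V x hx).toEquiv).symm

omit [Finite Ω] in
theorem card_diff_add (hx : x ≠ 0) {X : AddSubgroup V} (h : ∀ c : F, c • x ∈ X) :
    Nat.card {v // v ∈ X ∧ v ∉ F ∙ x} + Nat.card F = Nat.card X := by
  haveI : Finite V := Module.finite_of_finite F
  rw [← card_span (F := F) hx]
  refine Set.ncard_sdiff_add_ncard_of_subset (s := ((F ∙ x : Submodule F V) : Set V))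
    (t := (X : Set V)) fun v hv => ?_
  obtain ⟨c, rfl⟩ := mem_span_singleton.1 hv
  exact h c

variable (hA) in
/-- The orbits of the unipotent radical in an orbit of the stabilizer. -/
abbrev J (x : V) (ω : Ω) : Type _ :=
  {O : Quotient (QRel hA x) // ∃ g : isom B, g.1 x = x ∧ Quotient.mk _ (g • ω) = O}

omit [Finite Ω] [Finite F] [FiniteDimensional F V] in
theorem card_eq_of_smul {X X' : AddSubgroup V} (h : ∀ v, g.1 v ∈ X' ↔ v ∈ X) :
    Nat.card X' = Nat.card X := (Nat.card_congr (g.1.toEquiv.subtypeEquiv fun v => (h v).symm)).symm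

theorem card_J_mul {p : AddSubgroup F → Prop} (hp : p (A hA x ω)) :
    Nat.card (J hA x ω) * Nat.card (N B x) ≤ Nat.card (K hA (stabilizer _ ω) x) * mp hA Ω x p := by
  choose g hg hg' using fun O : J hA x ω => O.2
  exact family (fun O => g O • ω) (fun i j e => Subtype.ext (by
    rw [← hg', ← hg', Quotient.sound e])) (fun O => (card_eq_of_smul fun _ => mem_K_smul (hg O)).le)
    fun O => by rwa [A_smul (hg O)]

omit [Finite Ω] [Finite F] in
variable (hA) in
include hA in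
theorem exists_map (hB : B.Nondegenerate) (h1 : y ∉ F ∙ x) (h2 : v ∉ F ∙ x) (h : B x y = B x v) :
    ∃ g : isom B, g.1 x = x ∧ g.1 y = v := by
  obtain ⟨g, hg, h3, h4⟩ := exists_isom_step hA hB (F ∙ x) y v h1 h2 fun s hs => by
    obtain ⟨c, rfl⟩ := mem_span_singleton.1 hs
    simp [h]
  exact ⟨⟨g, hg⟩, h3 x (mem_span_singleton_self x), h4⟩

theorem count (hB : B.Nondegenerate) {X : Ω → AddSubgroup V}
    (hX : ∀ (g : isom B) ω v, g.1 x = x → (g.1 v ∈ X (g • ω) ↔ v ∈ X ω))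
    (hX' : ∀ ω ω', QRel hA x ω ω' → X ω = X ω') (hy : B x y = 0) (hy' : y ∉ F ∙ x) {ι : Type*}
    (g : ι → isom B) (hg : ∀ i, (g i).1 x = x) (hg' : ∀ i, y ∈ X (g i • ω))
    (hr : ∀ i j, QRel hA x (g i • ω) (g j • ω) → i = j) :
    Nat.card ι * Nat.card {v // v ∈ (N B x).toAddSubgroup ∧ v ∉ F ∙ x} ≤
      Nat.card {v // v ∈ X ω ∧ v ∉ F ∙ x} * Nat.card (J hA x ω) := by
  haveI : Finite V := Module.finite_of_finite F
  choose k hk hk' using fun v : {v // v ∈ (N B x).toAddSubgroup ∧ v ∉ F ∙ x} =>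
    exists_map hA hB hy' v.2.2 (hy.trans v.2.1.symm)
  rw [← Nat.card_prod]
  let φ : ι × {v // v ∈ (N B x).toAddSubgroup ∧ v ∉ F ∙ x} → J hA x ω := fun a =>
    ⟨_, k a.2 * g a.1, by rw [isom_mul_apply, hg, hk], rfl⟩
  refine card_le_mul_of_card_fiber φ fun ⟨O, g', h1, h2⟩ => ?_
  have h3 : ∀ a : {a // φ a = ⟨O, g', h1, h2⟩}, QRel hA x (k a.1.2 • g a.1.1 • ω) (g' • ω) := fun a =>
    mul_smul (k _) (g _) ω ▸ Quotient.exact ((Subtype.mk.inj a.2).trans h2.symm)
  refine Nat.card_le_card_of_injective (fun a => ⟨g'⁻¹.1 a.1.2.1, ?_, fun e => a.1.2.2.2 ?_⟩) fun a b e => ?_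
  · rw [← hX g' _ _ h1, apply_inv, ← hX' _ _ (h3 a), ← hk', hX _ _ _ (hk _)]
    exact hg' _
  · obtain ⟨c, hc⟩ := mem_span_singleton.1 e
    rw [← inv_apply hc.symm, inv_inv, map_smul, h1]
    exact smul_mem _ _ (mem_span_singleton_self x)
  · have h4 : a.1.2 = b.1.2 := Subtype.ext (g'⁻¹.1.injective (Subtype.mk.inj e))
    exact Subtype.ext (Prod.ext (hr _ _ (qRel_of_smul (g := k a.1.2) (a := 1) (by rw [hk, one_smul])
      one_ne_zero ((QRel hA x).trans (h3 a) (h4 ▸ (QRel hA x).symm (h3 b))))) h4)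

end Cfsg.Lib.MinDeg.Sp
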