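import Cfsg.Agent.Lib.MinDeg.SpL

/-!
# Minimal degrees of symplectic groups: multiplicities
-/

set_option autoImplicit false

namespace Cfsg.Lib.MinDeg.Sp

open Module Submodule Cfsg.Lib.Symp MulAction

variable {F V : Type*} [Field F] [AddCommGroup V] [Module F V] {B : LinearMap.BilinForm F V}
  {hA : B.IsAlt} {x y u v : V} {a b c w : F} {g : isom B} {Ω : Type*} [MulAction (isom B) Ω]
  {ω ω₁ ω₂ ω₃ : Ω}

theorem smul_mem_of_qRel {X : Ω → AddSubgroup V}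
    (hX : ∀ (g : isom B) ω v, g.1 x = x → (g.1 v ∈ X (g • ω) ↔ v ∈ X ω))
    (hX' : ∀ ω ω', QRel hA x ω ω' → X ω = X ω') (hu : B x u = 0) {s s' : F}
    (h : QRel hA x (tv hA u s • ω) (tv hA u s' • ω)) (hv : v ∈ X ω) : ((s - s') * B v u) • u ∈ X ω := by
  have h1 := (hX (tv hA u s) ω v (tv_apply_of hu)).2 hv
  rw [hX' _ _ h, ← apply_inv (tv hA u s') ((tv hA u s).1 v), hX _ _ _ (tv_apply_of hu), tv_inv,
    ← isom_mul_apply, tv_mul, tv_apply, add_mem_cancel_left hv] at h1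
  rwa [sub_eq_neg_add]

variable [Finite F]

theorem mem_of_two_smul (h2 : (2 : F) ≠ 0) {X : AddSubgroup V} (h : (2 : F) • v ∈ X) : v ∈ X := by
  obtain ⟨p, hp⟩ := CharP.exists F
  obtain ⟨k, hk⟩ := (CharP.char_is_prime F p).eq_two_or_odd'.resolve_left (by
    rintro rfl; exact h2 CharTwo.two_eq_zero)
  have h3 : (2 * k + 1 : F) = 0 := by simpa [hk] using CharP.cast_eq_zero F p
  convert neg_mem (nsmul_mem h k) using 1
  rw [← Nat.cast_smul_eq_nsmul F, smul_smul, ← neg_smul, show -((k : F) * 2) = 1 by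
    linear_combination -h3, one_smul]

theorem mem_ann_smul (g : isom B) (ω : Ω) (v : V) (hg : g.1 x = x) :
    g.1 v ∈ ann B (K hA (stabilizer _ (g • ω)) x) ↔ v ∈ ann B (K hA (stabilizer _ ω) x) :=
  g.1.surjective.forall.trans (forall_congr' fun u => by rw [mem_K_smul hg, g.2])

variable [FiniteDimensional F V] [Finite Ω] (hB : B.Nondegenerate)

omit [FiniteDimensional F V] in
theorem sum_le (T : Finset F) : ∑ w ∈ T, m hA Ω x w ≤ Nat.card Ω := by
  haveI := Fintype.ofFinite F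
  have h1 := Root.sum_m (R := root hA x) (Ω := Ω) (Root.mul_nd (K := F))
  rw [show (root hA x).N = ⊤ from rfl, Root.ann_top, AddSubgroup.card_bot, one_mul] at h1
  exact h1 ▸ Finset.sum_le_sum_of_subset (Finset.subset_univ _)

omit [FiniteDimensional F V] in
theorem all_le (hw : w ≠ 0) {k : ℕ} (h : ∀ w, k ≤ m hA Ω x w) :
    m hA Ω x 0 + m hA Ω x w + (Nat.card F - 2) * k ≤ Nat.card Ω := by
  classical
  haveI := Fintype.ofFinite F
  refine le_trans ?_ (sum_le (hA := hA) (x := x) Finset.univ)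
  rw [← Finset.sum_add_sum_compl {0, w}, Finset.sum_pair hw.symm, Nat.card_eq_fintype_card,
    ← Finset.card_pair hw.symm, ← Finset.card_compl]
  exact Nat.add_le_add_left (Finset.card_nsmul_le_sum _ _ _ fun w _ => h w) _

include hB

theorem sq_le (hx : x ≠ 0) (hw : w ≠ 0) :
    2 * m hA Ω x 0 + (Nat.card F - 1) * m hA Ω x w ≤ 2 * Nat.card Ω := by
  classical
  haveI := Fintype.ofFinite F
  have h1 := sum_le (hA := hA) (x := x) (Ω := Ω) (insert 0 (({0}ᶜ : Finset F).image (· ^ 2 * w)))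
  rw [Finset.sum_insert (by simp [hw]), Finset.sum_congr rfl (g := fun _ => m hA Ω x w) fun v hv => by
    obtain ⟨a, ha, rfl⟩ := Finset.mem_image.1 hv
    obtain ⟨s, hs, -⟩ := exists_torus hA hB hx (a := a) (by simpa using ha)
    exact ((conj_root (hs := pow_ne_zero 2 (by simpa using ha)) hs rfl).m_eq fun u _ => by
      simp [mul_assoc, mul_left_comm]).symm, Finset.sum_const, smul_eq_mul] at h1
  have h2 := Finset.card_le_mul_card_image (f := (· ^ 2 * w)) ({0}ᶜ : Finset F) 2 fun v hv => by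
    obtain ⟨a, -, rfl⟩ := Finset.mem_image.1 hv
    exact (Finset.card_le_card (t := {a, -a}) fun b hb => by
      simpa [hw, sq_eq_sq_iff_eq_or_eq_neg] using (Finset.mem_filter.1 hb).2).trans Finset.card_le_two
  rw [Finset.card_compl, Finset.card_singleton, ← Nat.card_eq_fintype_card] at h2
  nlinarith [Nat.mul_le_mul_right (m hA Ω x w) h2]

omit [Finite Ω] [Finite F] in
theorem exists_conj (hs : ∀ s : F, ∃ μ, μ ^ 2 = s) (hx : x ≠ 0) (s : F) (h : s ≠ 0) :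
    ∃ g, Root.Conj (root hA x) (root hA x) g (AddAut.mulLeft (Units.mk0 s h)) := by
  obtain ⟨a, rfl⟩ := hs s
  obtain ⟨g, hg, -⟩ := exists_torus hA hB hx (a := a) (by simpa using h)
  exact ⟨g, conj_root hg rfl⟩

variable {q n : ℕ} (hq : Nat.card F = q) (hn : finrank F V = 2 * n + 2)
include hq hn

theorem mul_le_mp (hx : x ≠ 0) {ι : Type*} (ω : ι → Ω) (hr : ∀ i j, QRel hA x (ω i) (ω j) → i = j)
    (hk : ∀ i, ∀ u ∈ K hA (stabilizer _ (ω i)) x, u ∈ F ∙ x) {p : AddSubgroup F → Prop}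
    (hp : ∀ i, p (A hA x (ω i))) : Nat.card ι * q ^ (2 * n) ≤ mp hA Ω x p := by
  haveI : Finite V := Module.finite_of_finite F
  have h1 := family ω hr (k := q) (fun i => (AddSubgroup.card_le_of_le
    (K := (F ∙ x).toAddSubgroup) (hk i)).trans_eq ((card_span hx).trans hq)) hp
  rw [card_N hB hx hq hn, mul_left_comm] at h1
  exact Nat.le_of_mul_le_mul_left h1 (hq ▸ Nat.card_pos)

theorem one_le (hx : x ≠ 0) (h1 : ∀ u ∈ K hA (stabilizer _ ω) x, u ∈ F ∙ x) (hw : w ∈ A hA x ω) :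
    q ^ (2 * n) ≤ m hA Ω x w :=
  le_trans (by simp) (mul_le_mp hB hq hn hx (fun _ : Unit => ω) (fun _ _ _ => rfl) (fun _ => h1)
    (p := (w ∈ ·)) fun _ => hw)

theorem two_le (hx : x ≠ 0) (h : ¬ QRel hA x ω₁ ω₂) (h1 : ∀ u ∈ K hA (stabilizer _ ω₁) x, u ∈ F ∙ x)
    (h2 : ∀ u ∈ K hA (stabilizer _ ω₂) x, u ∈ F ∙ x) (hw : w ∈ A hA x ω₁) (hw' : w ∈ A hA x ω₂) :
    2 * q ^ (2 * n) ≤ m hA Ω x w :=
  le_trans (by simp) <| mul_le_mp hB hq hn hx (fun i : Bool => cond i ω₁ ω₂) (by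
    rintro (_ | _) (_ | _) e
    exacts [rfl, absurd ((QRel hA x).symm e) h, absurd e h, rfl]) (Bool.forall_bool.2 ⟨h2, h1⟩)
    (p := (w ∈ ·)) (Bool.forall_bool.2 ⟨hw', hw⟩)

theorem three_le (hx : x ≠ 0) (h : ¬ QRel hA x ω₁ ω₂) (h' : ¬ QRel hA x ω₁ ω₃) (h'' : ¬ QRel hA x ω₂ ω₃)
    (h1 : ∀ u ∈ K hA (stabilizer _ ω₁) x, u ∈ F ∙ x) (h2 : ∀ u ∈ K hA (stabilizer _ ω₂) x, u ∈ F ∙ x)
    (h3 : ∀ u ∈ K hA (stabilizer _ ω₃) x, u ∈ F ∙ x) : 3 * q ^ (2 * n) ≤ m hA Ω x 0 :=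
  le_trans (by simp) <| mul_le_mp hB hq hn hx ![ω₁, ω₂, ω₃] (fun i j e => by
    have e' := (QRel hA x).symm e
    fin_cases i <;> fin_cases j <;> simp_all) (fun i => by fin_cases i <;> assumption)
    (p := (0 ∈ ·)) fun _ => zero_mem _

omit [Finite Ω] in
variable (hA) in
include hA in
theorem card_diff (hx : x ≠ 0) :
    Nat.card {v // v ∈ (N B x).toAddSubgroup ∧ v ∉ F ∙ x} + q = q * q ^ (2 * n) :=
  hq ▸ (card_diff_add hx (X := (N B x).toAddSubgroup) fun c => by simp [hA.self_eq_zero]).trans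
    (card_N hB hx rfl hn)

theorem count_le (hx : x ≠ 0) {X : Ω → AddSubgroup V}
    (hX : ∀ (g : isom B) ω v, g.1 x = x → (g.1 v ∈ X (g • ω) ↔ v ∈ X ω))
    (hX' : ∀ ω ω', QRel hA x ω ω' → X ω = X ω') (h0 : ∀ c : F, c • x ∈ X ω) (hy : B x y = 0)
    (hy' : y ∉ F ∙ x) {ι : Type*} (g : ι → isom B) (hg : ∀ i, (g i).1 x = x) (hg' : ∀ i, y ∈ X (g i • ω))
    (hr : ∀ i j, QRel hA x (g i • ω) (g j • ω) → i = j) {p : AddSubgroup F → Prop} (hp : p (A hA x ω)) :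
    Nat.card ι * (q ^ 2 * (q ^ (2 * n) - 1) * q ^ (2 * n)) ≤
      (Nat.card (X ω) - q) * Nat.card (K hA (stabilizer _ ω) x) * mp hA Ω x p := by
  have h1 := count hB hX hX' hy hy' g hg hg' hr
  have h2 := card_J_mul (hA := hA) hp
  rw [card_N hB hx hq hn] at h2
  rw [Nat.eq_sub_of_add_eq (card_diff hA hB hq hn hx), Nat.eq_sub_of_add_eq (card_diff_add hx h0), hq,
    ← Nat.mul_sub_one] at h1
  calc _ = Nat.card ι * (q * (q ^ (2 * n) - 1)) * (q * q ^ (2 * n)) := by ring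
    _ ≤ _ := Nat.mul_le_mul_right _ h1
    _ ≤ _ := by rw [mul_assoc, mul_assoc]; exact Nat.mul_le_mul_left _ h2

end Cfsg.Lib.MinDeg.Sp
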