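import Cfsg.Agent.Lib.MinDeg.SpA

/-!
# Minimal degrees of symplectic groups: geometry
-/

set_option autoImplicit false

namespace Cfsg.Lib.MinDeg.Sp

open Module Submodule Cfsg.Lib.Symp

variable {F V : Type*} [Field F] [AddCommGroup V] [Module F V] {B : LinearMap.BilinForm F V}
  {hA : B.IsAlt} {H : Subgroup (isom B)} {x y u u' v : V} {a b c c' γ : F} {g : isom B}

theorem p_of_mul {s : F} (hs : s ≠ 0) (h : ∀ c, tv hA x (c * s) ∈ H) : P hA H x := fun c => by
  simpa [hs] using h (c / s)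

theorem e_add_smul_iff : E hA H x (u + c • x) γ ↔ E hA H x u (γ + 2 * c) :=
  ⟨fun h => (h.sub (e_smul_iff.2 (show tv hA x (-(2 * c) + 2 * c) ∈ H by simp))).congr (by simp)
    (by simp [h.perp]), fun h => (h.mul (e_smul_iff.2 (show tv hA x (-(2 * c) + 2 * c) ∈ H by simp))).congr
      rfl (by simp [h.perp])⟩

theorem P.add_of_ne (hx : P hA H x) (hy : P hA H y) (h : B y x ≠ 0) : P hA H (y + x) := by
  simpa [tv_apply, h] using hy.map (hx (B y x)⁻¹)

theorem P.comb (hx : P hA H x) (hy : P hA H y) (h : B y x ≠ 0) (a b : F) :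
    P hA H (a • y + b • x) := by
  rcases eq_or_ne a 0 with rfl | ha
  · simpa using hx.smul b
  rcases eq_or_ne b 0 with rfl | hb
  · simpa using hy.smul a
  exact (hx.smul b).add_of_ne (hy.smul a) (by simp [ha, hb, h])

theorem P.add (hr : ∀ x, ¬ P hA H x → ∀ u ∈ K hA H x, u ∈ F ∙ x) (hx : P hA H x) (hy : P hA H y) :
    P hA H (y + x) := by
  refine (eq_or_ne (B y x) 0).elim (fun h => by_contra fun e => ?_) (hx.add_of_ne hy)
  have h' := hA.isRefl _ _ h
  obtain ⟨c, hc⟩ := mem_span_singleton.1 (hr _ e y ⟨-1, by simp [hA.self_eq_zero, h'], by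
    convert mul_mem (hy 1) (hx (-1)) using 1
    refine isom_ext fun v => ?_
    simp only [sg_apply, tv_apply, isom_mul_apply, map_add, map_smul, LinearMap.add_apply,
      LinearMap.smul_apply, smul_eq_mul, h']; module⟩)
  rcases eq_or_ne c 0 with rfl | h0
  · rw [zero_smul] at hc; subst hc; exact e (by simpa)
  · exact e (P.of_smul (hc.symm ▸ hy) h0)

theorem tv_add (h : B x y = 0) (μ c : F) : tv hA (y + μ • x) c =
    tv hA y c * sg hA x ((c * μ) • y) (c * μ ^ 2) (by simp [h]) := isom_ext fun v => by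
  simp only [sg_apply, tv_apply, isom_mul_apply, map_add, map_smul, LinearMap.add_apply,
    LinearMap.smul_apply, smul_eq_mul, h, hA.isRefl _ _ h, hA.self_eq_zero]; module

theorem forall_span_pair {z : V} : (∀ s ∈ span F {x, y}, B s z = 0) ↔ B x z = 0 ∧ B y z = 0 :=
  ⟨fun h => ⟨h _ (subset_span (by simp)), h _ (subset_span (by simp))⟩, fun h s hs => by
    obtain ⟨a, b, rfl⟩ := mem_span_pair.1 hs
    simp [h.1, h.2]⟩

theorem finrank_pair_le (x y : V) : finrank F (span F {x, y}) ≤ 2 := by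
  classical
  have := finrank_span_finset_le_card (R := F) ({x, y} : Finset V)
  rw [Finset.coe_pair] at this
  exact this.trans Finset.card_le_two

theorem eq_zero_of_eigen {h : isom B} {ε : F} (hx : x ≠ 0) (h1 : h.1 x = a • x) (h3 : a ≠ ε)
    (e : h.1 v = ε • v) (e' : h.1 (v + c • x) = ε • (v + c • x)) : c = 0 := by
  rw [map_add, map_smul, e, h1, smul_add, add_right_inj, smul_smul, smul_smul, mul_comm ε] at e'
  exact (mul_eq_mul_left_iff.1 (smul_left_injective F hx e')).resolve_left h3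

variable [FiniteDimensional F V] (hB : B.Nondegenerate)
include hB

variable (hA) in
include hA in
theorem exists_perp_pair (h : v ∉ span F {x, y}) (β : F) : ∃ w, B x w = 0 ∧ B y w = 0 ∧ B v w = β := by
  obtain ⟨w, h1, h2⟩ := exists_orth_eq_one hA hB h
  exact ⟨β • w, by simp [forall_span_pair.1 h1], by simp [forall_span_pair.1 h1], by simp [h2]⟩

theorem block {X : AddSubgroup V} (h1 : ∀ v ∈ X, B x v = 0) (h2 : ∀ y ∈ X, y ∉ F ∙ x →
    ∀ u c, B x u = 0 → B y u = 0 → ∀ v ∈ X, (tv hA u c).1 v ∈ X) :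
    (∀ v, B x v = 0 → v ∈ X) ∨ ∃ y, ∀ v ∈ X, v ∈ span F {x, y} := by
  refine (em _).symm.imp_left fun h v hv => ?_
  push Not at h
  have k : ∀ y ∈ X, y ∉ F ∙ x → ∀ y' ∈ X, y' ∉ span F {x, y} → ∀ u, B x u = 0 → B y u = 0 → u ∈ X :=
    fun y hy e y' hy' e' => by
      have k : ∀ u, B x u = 0 → B y u = 0 → B y' u ≠ 0 → u ∈ X := fun u a1 a2 a3 => by
        simpa [tv_apply, a3] using sub_mem (h2 y hy e u (B y' u)⁻¹ a1 a2 y' hy') hy'
      obtain ⟨w, a1, a2, a3⟩ := exists_perp_pair hA hB e' 1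
      refine fun u b1 b2 => (eq_or_ne (B y' u) 0).elim (fun b3 => ?_) (k u b1 b2)
      simpa using sub_mem (k (u + w) (by simp [*]) (by simp [*]) (by simp [*])) (k w a1 a2 (by simp [*]))
  obtain ⟨y, hy, e⟩ := h 0
  replace e : y ∉ F ∙ x := fun e' => e (span_mono (by simp) e')
  obtain ⟨y', hy', e'⟩ := h y
  have e'' : y ∉ span F {x, y'} := fun a => by
    rw [Set.pair_comm] at a e'
    exact e' (mem_span_insert_exchange a e)
  obtain ⟨w, a1, a2, a3⟩ := exists_perp_pair hA hB e'' (B y v)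
  simpa using add_mem (k y hy e y' hy' e' (v - w) (by simp [*]) (by simp [*]))
    (k y' hy' (fun a => e' (span_mono (by simp) a)) y hy e'' w a1 a2)

variable (hA) in
include hA in
theorem finrank_le_of_perp {n : ℕ} {U : Submodule F V} (hU : finrank F U ≤ n)
    (h : ∀ w, B x w = 0 → B y w = 0 → w ∈ U) : finrank F V ≤ n + 2 := by
  have h1 := LinearMap.BilinForm.finrank_orthogonal hB (span F {x, y})
  have h2 := finrank_pair_le (F := F) x y
  have h3 := finrank_mono (show B.orthogonal (span F {x, y}) ≤ U from fun w hw =>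
    h w (forall_span_pair.1 hw).1 (forall_span_pair.1 hw).2)
  omega

variable (hA) in
include hA in
theorem exists_ne (hn : 5 ≤ finrank F V) (x y : V) :
    ∃ u u', B x u = 0 ∧ B y u = 0 ∧ B x u' = 0 ∧ B y u' = 0 ∧ B u' u ≠ 0 := by
  by_contra! h
  have := finrank_le_of_perp hA hB (finrank_pair_le x y) fun w h1 h2 => mem_of_forall_orth hA hB
    fun v hv => h v w (forall_span_pair.1 hv).1 (forall_span_pair.1 hv).2 h1 h2
  omega

variable (hA) in
include hA in
theorem mem_span_of_perp (hn : finrank F V = 4) (hx : x ≠ 0) (hy : y ∉ F ∙ x) (h : B x y = 0)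
    (h1 : B x v = 0) (h2 : B y v = 0) : ∃ a b : F, a • x + b • y = v := by
  have h3 : finrank F (span F {x, y}) = 2 := by
    rw [span_insert, finrank_sup_span_singleton hy, finrank_span_singleton hx]
  have h4 := LinearMap.BilinForm.finrank_orthogonal hB (span F {x, y})
  exact mem_span_pair.1 ((eq_of_le_of_finrank_eq (show span F {x, y} ≤ B.orthogonal (span F {x, y})
    from span_le.2 (Set.pair_subset_iff.2 ⟨forall_span_pair.2 ⟨hA x, hA.isRefl _ _ h⟩,
      forall_span_pair.2 ⟨h, hA y⟩⟩)) (by omega)).ge (forall_span_pair.2 ⟨h1, h2⟩))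

variable (hA) in
include hA in
theorem exists_torus (hx : x ≠ 0) (ha : a ≠ 0) :
    ∃ s : isom B, s.1 x = a • x ∧ ∀ v, B x v = 0 → ∃ c : F, s.1 v = v + c • x := by
  obtain ⟨x', h1⟩ := exists_bilin_eq_one hB hx
  obtain ⟨s, hs, h2, h3⟩ := exists_isom_step hA hB (N B x ⊓ N B x') x (a • x)
    (fun e => by simpa [h1] using e.2) (fun e => by simpa [h1, ha] using e.2)
    fun s hs => by simp [hA.isRefl _ _ hs.1]
  refine ⟨⟨s, hs⟩, h3, fun v hv => ⟨B x' v * (a - 1), ?_⟩⟩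
  have := h2 (v - B x' v • x) ⟨by simp [hv, hA.self_eq_zero], by simp [h1]⟩
  rw [map_sub, map_smul, h3, sub_eq_iff_eq_add] at this
  rw [this]; module

theorem exists_partner (hx : ¬ P hA H x) (hr : ∀ u ∈ K hA H x, u ∈ F ∙ x)
    (hc : ∀ g : isom B, g.1 x = x → ∃ y ∈ pointRad hA x, y * g ∈ H) {h : isom B} (hh : h ∈ H) {ε : F}
    (h1 : h.1 x = a • x) (h2 : ∀ v, B x v = 0 → ∃ c : F, h.1 v = ε • v + c • x) (h3 : a ≠ ε)
    (h4 : (∃ b : F, b ≠ 0 ∧ b ^ 2 ≠ 1) ∨ (2 : F) ≠ 0 ∧ 5 ≤ finrank F V) (hu : B x u = 0) :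
    ∃ c : F, P hA H (u + c • x) := by
  have hx0 := ne_zero_of_not_p hx
  have k1 : ∀ u, B x u = 0 → ∃ c : F, h.1 (u + c • x) = ε • (u + c • x) := fun u hu => by
    obtain ⟨d, hd⟩ := h2 u hu
    refine ⟨d / (ε - a), ?_⟩
    have := sub_ne_zero.2 h3.symm
    rw [map_add, map_smul, hd, h1]
    match_scalars <;> field_simp <;> ring
  have k2 : ∀ k ∈ H, k.1 x = x → ∀ w, B x w = 0 → h.1 w = ε • w → h.1 (k.1 w) = ε • k.1 w := by
    intro k hk hkx w hw e
    have a0 : ∀ v, (h * k * (k * h)⁻¹).1 (k.1 (h.1 v)) = h.1 (k.1 v) := fun v =>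
      congrArg (fun g : isom B => g.1 v) (inv_mul_cancel_right (h * k) (k * h))
    have a1 : ∀ v, B x v = 0 → B x (k.1 v) = 0 := fun v hv => by rw [← hkx, k.2, hv]
    obtain ⟨d, γ, a2, a3⟩ := mem_pointRad_of hA hB hx0 (g := h * k * (k * h)⁻¹) (by
      have := a0 x
      rw [h1, map_smul, map_smul, hkx, h1] at this
      exact smul_right_injective V (left_ne_zero_of_smul (h1 ▸ h.1.map_ne_zero_iff.2 hx0)) this)
      fun v hv => by
        obtain ⟨v, rfl⟩ := (k * h).1.surjective v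
        have a2 : B x v = 0 := by
          rw [← (k * h).2, isom_mul_apply, h1, map_smul, hkx, LinearMap.map_smul₂, hA.isRefl _ _ hv,
            smul_zero]
        obtain ⟨c, hc⟩ := h2 v a2
        obtain ⟨c', hc'⟩ := h2 _ (a1 v a2)
        exact ⟨c' - c, by rw [isom_mul_apply k, a0, hc', hc, map_add, map_smul, map_smul, hkx]; module⟩
    obtain ⟨c, rfl⟩ := mem_span_singleton.1 (hr d ⟨γ, a2, a3 ▸ mul_mem (mul_mem hh hk)
      (inv_mem (mul_mem hk hh))⟩)
    rw [← a0, a3, sg_smul, e, map_smul, map_smul, tv_apply_of (hA.isRefl _ _ (a1 w hw))]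
  have k3 : ∀ g : isom B, g.1 x = x → (∀ w, B x w = 0 → h.1 w = ε • w → h.1 (g.1 w) = ε • g.1 w) →
      ∃ γ, tv hA x γ * g ∈ H := fun g hg e => by
    obtain ⟨_, ⟨d, γ, a1, rfl⟩, a2⟩ := hc g hg
    obtain ⟨c, hc⟩ := exists_smul_of_forall_orth hA hB (u := x) (z := g⁻¹.1 d) fun v hv => by
      obtain ⟨c, a3⟩ := k1 v (hA.isRefl _ _ hv)
      have a4 : B x (v + c • x) = 0 := by simp [hA.isRefl _ _ hv, hA.self_eq_zero]
      have a5 := k2 _ a2 (by rw [isom_mul_apply, hg, sg_apply_self]) _ a4 a3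
      rw [isom_mul_apply, sg_apply_of _ ((congrArg _ hg.symm).trans ((g.2 _ _).trans
        (hA.isRefl _ _ a4)))] at a5
      have a6 := eq_zero_of_eigen hx0 h1 h3 (e _ a4 a3) a5
      rw [← apply_inv g d, g.2, map_add, map_smul, LinearMap.add_apply, LinearMap.smul_apply,
        ← g.2 x, hg, apply_inv, a1, smul_zero, add_zero] at a6
      exact a6
    obtain rfl : d = c • x := by rw [← apply_inv g d, hc, map_smul, hg]
    exact ⟨_, sg_smul hA x c γ a1 ▸ a2⟩
  obtain ⟨c, hw⟩ := k1 u hu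
  refine ⟨c, ?_⟩
  have hw' : B x (u + c • x) = 0 := by simp [hu, hA.self_eq_zero]
  generalize u + c • x = w at hw hw'
  rcases h4 with ⟨b, hb, hb'⟩ | ⟨h4, hn⟩
  · by_cases e : w ∈ F ∙ x
    · obtain ⟨c, rfl⟩ := mem_span_singleton.1 e
      rw [eq_zero_of_eigen (v := 0) (c := c) hx0 h1 h3 (by simp) (by simpa using hw), zero_smul]
      exact p_zero
    obtain ⟨g, a1, a2⟩ := exists_map hA hB e (mt (smul_mem_iff _ hb).1 e) (by simp [hw'])
    obtain ⟨_, ⟨d, γ, a3, rfl⟩, a4⟩ := hc g a1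
    have a5 : (sg hA x d γ a3 * g).1 x = x := by rw [isom_mul_apply, a1, sg_apply_self]
    have a6 : (sg hA x d γ a3 * g).1 w = b • w + B (b • w) d • x := by
      rw [isom_mul_apply, a2, sg_apply_of _ (by simp [hA.isRefl _ _ hw'])]
    rw [eq_zero_of_eigen (c := B (b • w) d) hx0 h1 h3 (by rw [map_smul, hw, smul_comm])
      (a6 ▸ k2 _ a4 a5 w hw' hw), zero_smul, add_zero] at a6
    refine p_of_mul (sub_ne_zero.2 hb') fun c => ?_
    obtain ⟨γ', a7⟩ := k3 (tv hA w c) (tv_apply_of hw') fun v _ hv => by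
      simp only [tv_apply, map_add, map_smul, hv, hw]; module
    have a8 := mul_mem (inv_mem a7) (mul_mem (mul_mem a4 a7) (inv_mem a4))
    rw [← conj_mul, conj_tv, conj_tv, a5, a6, mul_inv_rev, mul_assoc, inv_mul_cancel_left, tv_inv,
      tv_smul, tv_mul] at a8
    convert a8 using 2; ring
  obtain ⟨u, u', a1, a2, a3, a4, a5⟩ := exists_ne hA hB hn x w
  have k4 : ∀ u, B x u = 0 → B w u = 0 → ∃ c : F, ∀ s : F, ∃ γ h, tv hA x γ * sg hA w (s • (u + c • x)) 0 h ∈ H :=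
    fun u a1 a2 => (k1 u a1).imp fun c hc s => (k3 (sg hA w (s • (u + c • x)) 0
      (by simp [a2, hA.isRefl _ _ hw'])) (by simp [sg_apply, hw', a1, hA.self_eq_zero]) fun v _ hv => by
        simp only [sg_apply, map_add _ (_ + _), map_add _ v, map_smul, hv, hw, hc]; module).imp
          fun _ h => ⟨_, h⟩
  obtain ⟨c, b1⟩ := k4 u a1 a2
  obtain ⟨c', b2⟩ := k4 u' a3 a4
  refine p_of_mul (mul_ne_zero h4 a5) fun s => ?_
  obtain ⟨γ, _, b3⟩ := b1 s
  obtain ⟨γ', _, b4⟩ := b2 1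
  convert mul_mem (mul_mem b3 b4) (inv_mem (mul_mem b4 b3)) using 1
  rw [eq_mul_inv_iff_mul_eq]
  refine isom_ext fun v => ?_
  simp only [sg_apply, tv_apply, isom_mul_apply, map_add, map_smul, LinearMap.add_apply,
    LinearMap.smul_apply, smul_eq_mul, hA.self_eq_zero, a1, a2, a3, a4, hw', hA.isRefl _ _ a1,
    hA.isRefl _ _ a2, hA.isRefl _ _ a3, hA.isRefl _ _ a4, hA.isRefl _ _ hw', ← hA.neg_eq u' u]
  module

theorem exists_point (hn : 3 ≤ finrank F V) (hr : ∀ x, ¬ P hA H x → ∀ u ∈ K hA H x, u ∈ F ∙ x)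
    (hp : ∀ x, ¬ P hA H x → ∀ u, B x u = 0 → ∃ c : F, P hA H (u + c • x)) (hx : ¬ P hA H x) :
    ∃ z ≠ 0, ∀ g ∈ H, g.1 z ∈ F ∙ z := by
  let S : Submodule F V := ⟨⟨⟨{v | P hA H v}, fun h h' => P.add hr h' h⟩, p_zero⟩, fun c _ h => h.smul c⟩
  obtain ⟨z, h1, h2⟩ := exists_orth_eq_one hA hB (U := S) hx
  refine ⟨z, by rintro rfl; simp at h2, fun g hg => by_contra fun e => ?_⟩
  have h3 : ∀ s ∈ S, B s (g.1 z) = 0 := fun s hs => by
    rw [← apply_inv g s, g.2]; exact h1 _ (P.map hs (inv_mem hg))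
  have k : ∀ v, B z v = 0 → B (g.1 z) v = 1 → ∃ c : F, z = c • v := fun v a1 a2 =>
    exists_smul_of_forall_orth hA hB fun w hw => by
      obtain ⟨c, hc⟩ := hp v (fun e => by simp [hA.isRefl _ _ (h3 v e)] at a2) w (hA.isRefl _ _ hw)
      simpa [hA.isRefl _ _ a1] using h1 _ hc
  obtain ⟨v, a1, a2⟩ := exists_orth_eq_one hA hB e
  replace a1 := a1 z (mem_span_singleton_self z)
  have := finrank_le_of_perp hA hB (x := z) (y := g.1 z) (n := 0) (U := ⊥) (by simp) fun w b1 b2 => by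
    obtain ⟨c, hc⟩ := k v a1 a2
    obtain ⟨c', hc'⟩ := k (v + w) (by simp [a1, b1]) (by simp [a2, b2])
    obtain rfl : c = c' := by
      simpa [a2, b2] using congrArg (B (g.1 z)) (hc.symm.trans hc')
    have : c ≠ 0 := by rintro rfl; simp [hc] at h2
    simpa [this] using hc.symm.trans hc'
  omega

end Cfsg.Lib.MinDeg.Sp
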