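import Cfsg.Agent.Lib.MinDeg.SpC

/-!
# Minimal degrees of symplectic groups: stabilizers in the unipotent radical
-/

set_option autoImplicit false

namespace Cfsg.Lib.MinDeg.Sp

open Module Submodule Cfsg.Lib.Symp MulAction

variable {F V : Type*} [Field F] [AddCommGroup V] [Module F V] {B : LinearMap.BilinForm F V}
  {hA : B.IsAlt} {x y u v : V} {a b c w : F} {g : isom B} {Ω : Type*} [MulAction (isom B) Ω]
  {ω ω₁ ω₂ ω₃ : Ω}

theorem span_pair_eq (h : y ∉ F ∙ x) (h' : y ∈ span F {x, u}) : span F {x, u} = span F {x, y} := by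
  refine le_antisymm ?_ (span_le.2 (Set.pair_subset_iff.2 ⟨subset_span (by simp), h'⟩))
  rw [Set.pair_comm] at h'
  exact span_le.2 (Set.pair_subset_iff.2 ⟨subset_span (by simp),
    Set.pair_comm x y ▸ mem_span_insert_exchange h' h⟩)

theorem inv_mem_span (h : y ∉ F ∙ x) (hg : g.1 x = x) (h' : g.1 y ∈ span F {x, y}) :
    g⁻¹.1 y ∈ span F {x, y} := by
  obtain ⟨a, b, e⟩ := mem_span_pair.1 h'
  have h1 := inv_apply e.symm
  rw [map_add, map_smul, map_smul, inv_apply hg] at h1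
  rcases eq_or_ne b 0 with rfl | hb
  · exact absurd (mem_span_singleton.2 ⟨a, by simpa using h1⟩) h
  · exact mem_span_pair.2 ⟨-(b⁻¹ * a), b⁻¹, by
      conv_lhs => rw [← h1]
      match_scalars <;> field_simp <;> ring⟩

theorem two_mul_card_le {G : Type*} [AddGroup G] [Finite G] {X Y : AddSubgroup G} (h : X < Y) :
    2 * Nat.card X ≤ Nat.card Y := by
  obtain ⟨k, hk⟩ := AddSubgroup.card_dvd_of_le h.le
  rcases k with _ | _ | k
  · exact absurd hk Nat.card_pos.ne'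
  · exact absurd (AddSubgroup.eq_of_le_of_card_ge h.le (by omega)) h.ne
  · rw [hk]; nlinarith

theorem num_a {r X m : ℕ} (hr : 4 ≤ r) (hX : r * r ≤ X) (h1 : r * (X - 1) * X ≤ r * r * m)
    (h2 : (r - 1) * m + 2 < 2 * (r * X)) : False := by
  obtain ⟨j, rfl⟩ := Nat.exists_eq_add_of_le' hr
  obtain ⟨Y, rfl⟩ := Nat.exists_eq_add_of_le' (show 1 ≤ X by nlinarith)
  rw [Nat.add_sub_cancel, mul_assoc, mul_assoc] at h1
  rw [show j + 4 - 1 = j + 3 from rfl] at h2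
  have h3 := Nat.mul_le_mul_left (j + 3) (Nat.le_of_mul_le_mul_left h1 (by omega))
  have h4 : (j + 3) * Y * (Y + 1) < 2 * ((j + 4) * (j + 4)) * (Y + 1) := by
    nlinarith [Nat.mul_lt_mul_of_pos_left h2 (show 0 < j + 4 by omega)]
  have := lt_of_mul_lt_mul_right h4 (Nat.zero_le _)
  nlinarith

theorem num_b {r k d m : ℕ} (hr : 4 ≤ r) (hk : 2 * k ≤ r) (hd : d ≤ k) (h1 : r * (r - 1) * r ≤ d * k * m)
    (h2 : (r - 1) * m + 2 < 2 * (r * r)) : False := by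
  obtain ⟨j, rfl⟩ := Nat.exists_eq_add_of_le' hr
  rw [show j + 4 - 1 = j + 3 from rfl] at h1 h2
  have h3 : 4 * (d * k) ≤ (j + 4) * (j + 4) := by nlinarith [Nat.mul_le_mul hk hk]
  have h4 : 4 * (j + 3) ≤ m := Nat.le_of_mul_le_mul_left (c := (j + 4) * (j + 4)) (by
    nlinarith [Nat.mul_le_mul_right m h3]) (by positivity)
  nlinarith [Nat.mul_le_mul_left (j + 3) h4]

theorem num_c {q m : ℕ} (hq : 2 ≤ q) (h1 : 2 * (q ^ 2 * (q ^ 2 - 1) * q ^ 2) ≤ (q ^ 2 - q) * q ^ 2 * m)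
    (h2 : (q ^ 2 - 1) * m + 2 < 2 * (q ^ 2 * q ^ 2)) : False := by
  obtain ⟨j, rfl⟩ := Nat.exists_eq_add_of_le' hq
  rw [show (j + 2) ^ 2 - 1 = (j + 1) * (j + 3) from Nat.sub_eq_of_eq_add (by ring)] at h1 h2
  rw [show (j + 2) ^ 2 - (j + 2) = (j + 1) * (j + 2) from Nat.sub_eq_of_eq_add (by ring)] at h1
  have h3 : 2 * (j + 2) * (j + 3) ≤ m := Nat.le_of_mul_le_mul_left (c := (j + 1) * (j + 2) ^ 3)
    (by linarith) (by positivity)
  refine h2.not_ge (le_trans ?_ (Nat.add_le_add_right (Nat.mul_le_mul_left _ h3) _))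
  ring_nf; omega

theorem num_d {q X k k' m N : ℕ} (hq : 2 ≤ q) (hX : q ^ 2 ≤ X) (hk : 2 * k' ≤ q ^ 2)
    (h : k' * k = q ^ 2 * X) (h1 : q ^ 2 * (X - 1) * X ≤ (k' - q) * k * m) (h2 : q * m ≤ N)
    (h3 : (q - 1) * N + 1 < q ^ 2 * X) : False := by
  have h0 : 0 < q ^ 2 := by positivity
  have h4 : k' * (X - 1) ≤ (k' - q) * m := Nat.le_of_mul_le_mul_left (c := q ^ 2 * X) (by
    calc _ = k' * (q ^ 2 * (X - 1) * X) := by ring
      _ ≤ k' * ((k' - q) * k * m) := Nat.mul_le_mul_left _ h1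
      _ = k' * k * ((k' - q) * m) := by ring
      _ = _ := by rw [h]) (Nat.mul_pos h0 (by omega))
  obtain ⟨j, rfl⟩ := Nat.exists_eq_add_of_le' hq
  obtain ⟨Y, rfl⟩ := Nat.exists_eq_add_of_le' (show 1 ≤ X by omega)
  rcases le_total k' (j + 2) with h5 | h5
  · rw [Nat.sub_eq_zero_of_le h5, zero_mul, Nat.add_sub_cancel, Nat.le_zero, mul_eq_zero] at h4
    rcases h4 with rfl | rfl <;> nlinarith
  obtain ⟨d, rfl⟩ := Nat.exists_eq_add_of_le' h5
  rw [Nat.add_sub_cancel, Nat.add_sub_cancel] at h4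
  rw [show j + 2 - 1 = j + 1 from rfl] at h3
  have h5 := Nat.mul_le_mul_left ((j + 1) * (j + 2)) h4
  have h6 := Nat.mul_le_mul_left (d * (j + 1)) h2
  have h7 := Nat.mul_le_mul_left d h3
  have h8 := Nat.mul_le_mul_right ((j + 2) * Y + (j + 2) ^ 2) hk
  have h9 := Nat.mul_le_mul_left ((j + 2) ^ 3) hX
  nlinarith

theorem num_e {q X k m N : ℕ} (hq : 2 ≤ q) (hX : q ^ 2 ≤ X) (h : q ^ 2 * k = q ^ 2 * X)
    (h1 : q ^ 2 * (X - 1) * X ≤ (q ^ 2 - q) * k * m) (h2 : (q + 1) * m ≤ N)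
    (h3 : (q - 1) * N + 1 < q ^ 2 * X) : False := by
  have h0 : 0 < q ^ 2 := by positivity
  obtain rfl := Nat.eq_of_mul_eq_mul_left h0 h
  obtain ⟨j, rfl⟩ := Nat.exists_eq_add_of_le' hq
  obtain ⟨Y, rfl⟩ := Nat.exists_eq_add_of_le' (show 1 ≤ k by omega)
  rw [show (j + 2) ^ 2 - (j + 2) = (j + 1) * (j + 2) from Nat.sub_eq_of_eq_add (by ring),
    Nat.add_sub_cancel] at h1
  rw [show j + 2 - 1 = j + 1 from rfl] at h3
  have h4 : (j + 2) * Y ≤ (j + 1) * m := Nat.le_of_mul_le_mul_left (c := (j + 2) * (Y + 1))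
    (by linarith) (by positivity)
  nlinarith [Nat.mul_le_mul_left (j + 3) h4, Nat.mul_le_mul_left (j + 1) h2,
    Nat.mul_le_mul_left (j + 2) hX]

variable [Finite F] [FiniteDimensional F V]

theorem card_span_pair (hx : x ≠ 0) (h : y ∉ F ∙ x) :
    Nat.card (span F {x, y}).toAddSubgroup = Nat.card F ^ 2 := by
  change Nat.card (span F {x, y}) = _
  rw [natCard_eq_pow_finrank (K := F), span_insert, finrank_sup_span_singleton h,
    finrank_span_singleton hx]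

variable [Finite Ω] (hB : B.Nondegenerate) {q n : ℕ} (hq : Nat.card F = q)
  (hn : finrank F V = 2 * n + 2)
include hB hq hn

omit hB [Finite Ω] in
theorem card_V : Nat.card V = q ^ 2 * q ^ (2 * n) := by
  rw [natCard_eq_pow_finrank (K := F), hn, hq]; ring

theorem mul_le_of_count (h1 : 1 ≤ n) (hx : x ≠ 0) {X : Ω → AddSubgroup V}
    (hX : ∀ (g : isom B) ω v, g.1 x = x → (g.1 v ∈ X (g • ω) ↔ v ∈ X ω))
    (hX' : ∀ ω ω', QRel hA x ω ω' → X ω = X ω') (h0 : ∀ c : F, c • x ∈ X ω) (hy : B x y = 0)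
    (hy' : y ∉ F ∙ x) {ι : Type*} (g : ι → isom B) (hg : ∀ i, (g i).1 x = x) (hg' : ∀ i, y ∈ X (g i • ω))
    (hr : ∀ i j, QRel hA x (g i • ω) (g j • ω) → i = j)
    (h : Nat.card (X ω) * Nat.card (K hA (stabilizer _ ω) x) ≤ q ^ 2 * q ^ (2 * n)) (hw : w ∈ A hA x ω) :
    Nat.card ι * q ^ (2 * n) ≤ m hA Ω x w := by
  have h2 := count_le hB hq hn hx hX hX' h0 hy hy' g hg hg' hr (p := (w ∈ ·)) hw
  have h3 : q ≤ Nat.card (K hA (stabilizer _ ω) x) := hq ▸ card_diff_add hx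
    (X := K hA (stabilizer _ ω) x) smul_self_mem_K ▸ Nat.le_add_left _ _
  have h4 : 1 < q := hq ▸ Finite.one_lt_card
  refine Nat.le_of_mul_le_mul_left (c := q ^ 2 * (q ^ (2 * n) - 1)) (le_trans (by ring_nf; rfl)
    (h2.trans (Nat.mul_le_mul_right _ ?_))) (Nat.mul_pos (by positivity)
      (Nat.sub_pos_of_lt (Nat.one_lt_pow (by omega) h4)))
  rw [Nat.sub_mul, Nat.mul_sub_one]
  exact Nat.sub_le_sub_right h _ |>.trans (Nat.sub_le_sub_left (sq q ▸ Nat.mul_le_mul_left _ h3) _)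

variable (hβ : (q - 1) * Nat.card Ω + 1 < q ^ 2 * q ^ (2 * n))
include hβ

omit hB hn [FiniteDimensional F V] [Finite Ω] in
theorem card_lt : Nat.card Ω < (q + 2) * q ^ (2 * n) := by
  obtain ⟨j, rfl⟩ := Nat.exists_eq_add_of_le' (show 2 ≤ q from hq ▸ Finite.one_lt_card)
  refine lt_of_mul_lt_mul_left (a := j + 1) ?_ (Nat.zero_le _)
  rw [show j + 2 - 1 = j + 1 from rfl] at hβ
  nlinarith [Nat.zero_le (j * (j + 2) ^ (2 * n))]

theorem odd_cov (h2 : (2 : F) ≠ 0) (hx : x ≠ 0) (h1 : ∀ u ∈ K hA (stabilizer _ ω₁) x, u ∈ F ∙ x)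
    (h1' : ∀ u ∈ K hA (stabilizer _ ω₂) x, u ∈ F ∙ x) (hw0 : w ≠ 0) (hw : w ∈ A hA x ω₁)
    (hw' : w ∈ A hA x ω₂) : QRel hA x ω₁ ω₂ := by_contra fun e => by
  have h3 := card_lt hq hβ
  have h4 := two_le hB hq hn hx e h1 h1' hw hw'
  have h5 : 2 ≤ q := hq ▸ Finite.one_lt_card
  by_cases h : ∀ a : F, a ^ 2 * w ∈ A hA x ω₁
  · have h6 := all_le hw0 fun s => one_le hB hq hn hx h1 (show s ∈ _ by
      convert sub_mem (h ((s / w + 1) / 2)) (h ((s / w - 1) / 2)) using 1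
      field_simp; ring)
    have h7 := two_le hB hq hn hx e h1 h1' (zero_mem _) (zero_mem _)
    obtain ⟨j, rfl⟩ := Nat.exists_eq_add_of_le' h5
    rw [hq, Nat.add_sub_cancel] at h6
    nlinarith
  obtain ⟨a, ha⟩ := not_forall.1 h
  have ha0 : a⁻¹ ≠ 0 := by simpa using fun e => ha (by simp [e])
  obtain ⟨g, hg, -⟩ := exists_torus hA hB hx ha0
  have k : ∀ ω : Ω, w ∈ A hA x ω → ¬ QRel hA x ω₁ (g • ω) := fun ω hω e => ha (A_eq_of_qRel e ▸
    (mem_A_smul hg ha0).2 (by rwa [← mul_assoc, ← mul_pow, inv_mul_cancel₀ (by simpa using ha0), one_pow,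
      one_mul]))
  have h6 := three_le hB hq hn hx (k _ hw) (k _ hw') (mt (qRel_of_smul hg ha0) e) h1
    (K_le_smul hg ha0 h1) (K_le_smul hg ha0 h1')
  have h7 := sq_le (hA := hA) (Ω := Ω) hB hx hw0
  obtain ⟨j, rfl⟩ := Nat.exists_eq_add_of_le' h5
  rw [hq, show j + 2 - 1 = j + 1 from rfl] at h7
  nlinarith [Nat.mul_le_mul_left (j + 1) h4]

omit hn in
theorem odd_m (hx : x ≠ 0) (hw : w ≠ 0) : (q ^ 2 - 1) * m hA Ω x w + 2 < 2 * (q ^ 2 * q ^ (2 * n)) := by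
  have h1 := sq_le (hA := hA) (Ω := Ω) hB hx hw
  have h2 : m hA Ω x w ≤ m hA Ω x 0 := Root.m_le_m fun _ _ => zero_mem _
  obtain ⟨j, rfl⟩ := Nat.exists_eq_add_of_le' (show 1 ≤ q from hq ▸ Nat.card_pos)
  rw [hq] at h1
  rw [Nat.add_sub_cancel] at h1 hβ
  rw [show (j + 1) ^ 2 - 1 = j * (j + 2) from Nat.sub_eq_of_eq_add (by ring)]
  have := Nat.mul_le_mul_left j h1
  have := Nat.mul_le_mul_left j h2
  linarith

theorem odd_K (h2 : (2 : F) ≠ 0) (h1 : 1 ≤ n) (hP : ¬ P hA (stabilizer _ ω) x) :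
    (∀ u ∈ K hA (stabilizer _ ω) x, u ∈ F ∙ x) ∨ n = 1 ∧ ∃ y, B x y = 0 ∧ y ∉ F ∙ x ∧
      (∀ c : F, c • y ∈ K hA (stabilizer _ ω) x) ∧
      ∀ g : isom B, g.1 x = x → g.1 y ∈ span F {x, y} → QRel hA x ω (g • ω) := by
  haveI : Finite V := Module.finite_of_finite F
  refine (em _).imp_right fun e => ?_
  push Not at e
  obtain ⟨y, hy, hy'⟩ := e
  have hx := ne_zero_of_not_p hP
  obtain ⟨w, hw0, hw⟩ := exists_mem_A hP
  have h3 := (card_sq_le (B := (w * 2) • B) (S := K hA (stabilizer _ ω) x) (fun u hu => hB.2 u fun v => by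
    simpa [hw0, h2] using hu v) fun v ⟨_, hv⟩ u ⟨_, hu⟩ => by
      simpa [mul_assoc] using psi_of_mem_A hw (hu.comm hv)).1
  rw [card_V hq hn] at h3
  have h4 := odd_m (hA := hA) hB hq hβ hx hw0
  have hq2 : 2 ≤ q := hq ▸ Finite.one_lt_card
  have h5 : q ^ 2 ≤ q ^ (2 * n) := Nat.pow_le_pow_right (by omega) (by omega)
  have k0 : ∀ (g : isom B) (ω : Ω) v, g.1 x = x →
      (g.1 v ∈ K hA (stabilizer _ (g • ω)) x ↔ v ∈ K hA (stabilizer _ ω) x) := fun _ _ _ => mem_K_smul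
  obtain ⟨r, hr⟩ := Nat.exists_eq_add_of_le' (show 4 ≤ q ^ 2 by nlinarith)
  obtain h6 | ⟨y', h6⟩ := block (hA := hA) hB (X := K hA (stabilizer _ ω) x) (fun v ⟨_, hv⟩ => hv.perp)
    fun y hy hy' u c a1 a2 v hv => by_contra fun e => by
      have k : ∀ s s', QRel hA x (tv hA u s • ω) (tv hA u s' • ω) → _ := fun s s' h =>
        smul_mem_of_qRel k0 (fun _ _ => K_eq_of_qRel) a1 h hv
      rw [tv_apply, add_mem_cancel_left hv] at e
      have e' : (2 * (c * B v u)) • u ∉ K hA (stabilizer _ ω) x := fun a =>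
        e (mem_of_two_smul h2 (by rwa [smul_smul]))
      have := mul_le_of_count hB hq hn h1 hx k0 (fun _ _ => K_eq_of_qRel) smul_self_mem_K hy.choose_spec.perp
        hy' (fun i => tv hA u (![0, c, -c] i)) (fun _ => tv_apply_of a1) (fun i => by
          simpa only [tv_apply_of a2] using (k0 (tv hA u (![0, c, -c] i)) ω y (tv_apply_of a1)).2 hy)
        (fun i j h => by
          have := k _ _ h
          have := k _ _ ((QRel hA x).symm h)
          fin_cases i <;> fin_cases j <;> simp_all [two_mul, add_mul]) h3 hw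
      rw [Nat.card_fin] at this
      rw [hr, show r + 4 - 1 = r + 3 from rfl] at h4
      nlinarith [Nat.mul_le_mul_left (r + 3) this]
  · have := AddSubgroup.card_le_of_le (H := (N B x).toAddSubgroup) h6
    rw [show Nat.card (N B x).toAddSubgroup = _ from card_N hB hx hq hn] at this
    nlinarith [Nat.mul_le_mul this this, Nat.mul_le_mul_left (q ^ 2 * q ^ (2 * n)) h5]
  rw [span_pair_eq hy' (h6 y hy)] at h6
  have h7 := card_span_pair hx hy'
  have h8 : K hA (stabilizer _ ω) x ≤ (span F {x, y}).toAddSubgroup := h6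
  have k : ∀ {ι : Type} (g : ι → isom B) _ _ _, _ := fun g a b c => count_le hB hq hn hx k0
    (fun _ _ => K_eq_of_qRel) smul_self_mem_K hy.choose_spec.perp hy' g a b c (p := (w ∈ ·)) hw
  have h9 := k (fun _ : Unit => 1) (fun _ => rfl) (fun _ => by rwa [one_smul]) fun _ _ _ => rfl
  change _ ≤ _ * m hA Ω x w at h9
  have h10 := AddSubgroup.card_le_of_le h8
  rw [h7, hq] at h10
  obtain rfl : n = 1 := by
    by_contra e
    exact num_a (by omega) (pow_add q 2 2 ▸ Nat.pow_le_pow_right (by omega) (by omega)) ((by simp :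
      _ ≤ _).trans (h9.trans (Nat.mul_le_mul_right _ (Nat.mul_le_mul ((Nat.sub_le _ _).trans h10) h10)))) h4
  have h11 : K hA (stabilizer _ ω) x = (span F {x, y}).toAddSubgroup := by_contra fun e => by
    have a1 := two_mul_card_le (h8.lt_of_ne e)
    rw [h7, hq] at a1
    exact num_b (by omega) a1 (Nat.sub_le _ _) (by simpa using h9) h4
  refine ⟨rfl, y, hy.choose_spec.perp, hy', fun c => h11.ge (smul_mem _ c (h8 hy)), fun g a1 a2 =>
    by_contra fun e => ?_⟩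
  have a3 := k (fun i : Bool => cond i 1 g) (Bool.forall_bool.2 ⟨a1, rfl⟩) (Bool.forall_bool.2
    ⟨apply_inv g y ▸ (k0 g ω _ a1).2 (h11.ge (inv_mem_span hy' a1 a2)),
      by simpa using hy⟩) (by
    rintro (_ | _) (_ | _) h
    exacts [rfl, absurd (by simpa using (QRel hA x).symm h) e, absurd (by simpa using h) e, rfl])
  change _ ≤ _ * m hA Ω x w at a3
  rw [h11, h7, hq] at a3
  exact num_c hq2 (by simpa using a3) h4

variable (hs : ∀ s : F, ∃ μ, μ ^ 2 = s)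
include hs

omit hn in
theorem even_m (hx : x ≠ 0) (hw : w ≠ 0) : m hA Ω x w < 2 * q ^ (2 * n) := by
  have h1 := Root.mul_m_le (R := root hA x) (Ω := Ω) rfl (exists_conj hB hs hx) hw
  obtain ⟨j, rfl⟩ := Nat.exists_eq_add_of_le' (show 2 ≤ q from hq ▸ Finite.one_lt_card)
  rw [hq] at h1
  rw [show j + 2 - 1 = j + 1 from rfl] at hβ
  refine lt_of_mul_lt_mul_left (a := (j + 1) * (j + 2)) ?_ (Nat.zero_le _)
  nlinarith [Nat.mul_le_mul_left (j + 1) h1, Nat.zero_le (j * (j + 2) * (j + 2) ^ (2 * n))]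

theorem even_cov (hx : x ≠ 0) (h1 : ∀ u ∈ K hA (stabilizer _ ω₁) x, u ∈ F ∙ x)
    (h1' : ∀ u ∈ K hA (stabilizer _ ω₂) x, u ∈ F ∙ x) (hw0 : w ≠ 0) (hw : w ∈ A hA x ω₁)
    (hw' : w ∈ A hA x ω₂) : QRel hA x ω₁ ω₂ := by_contra fun e =>
  (even_m hB hq hβ hs hx hw0).not_ge (two_le hB hq hn hx e h1 h1' hw hw')

omit hq hn hβ [Finite Ω] in
theorem exists_mem_A_smul (hx : y ≠ 0) (hw0 : w ≠ 0) (hw : w ∈ A hA y ω) (hx' : x ≠ 0) (hb : b ≠ 0) :
    ∃ (g : isom B) (a : F), a ≠ 0 ∧ g.1 y = a • x ∧ b ∈ A hA x (g • ω) := by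
  obtain ⟨a, ha⟩ := hs (w / b)
  have ha0 : a ≠ 0 := by rintro rfl; simp [hw0, hb, eq_comm] at ha
  obtain ⟨g, hg, h⟩ := exists_isom_of_ne_zero hA hB hx (smul_ne_zero ha0 hx')
  exact ⟨⟨g, hg⟩, a, ha0, h, (mem_A_smul h ha0).2 (by rwa [ha, div_mul_cancel₀ _ hb])⟩

theorem even_top (hP : ¬ P hA (stabilizer _ ω) x) (h1 : ∀ u ∈ K hA (stabilizer _ ω) x, u ∈ F ∙ x) :
    A hA x ω = ⊤ := by_contra fun e => by
  have hx := ne_zero_of_not_p hP
  obtain ⟨w, hw0, hw⟩ := exists_mem_A hP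
  obtain ⟨b, -, hb⟩ := SetLike.not_le_iff_exists.1 (mt eq_top_iff.2 e)
  have k : ∀ {X : AddSubgroup F} {b}, b ∉ X → b ≠ 0 := fun h => by rintro rfl; exact h (zero_mem _)
  obtain ⟨g, a, a1, a2, a3⟩ := exists_mem_A_smul hB hs hx hw0 hw hx (k hb)
  obtain ⟨c, b1, b2⟩ : ∃ c, c ∉ A hA x ω ∧ c ∉ A hA x (g • ω) := by
    have : (a ^ 2)⁻¹ * b ∉ A hA x (g • ω) := by
      rwa [mem_A_smul a2 a1, mul_inv_cancel_left₀ (pow_ne_zero 2 a1)]
    by_cases h : (a ^ 2)⁻¹ * b ∈ A hA x ω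
    · exact ⟨b + (a ^ 2)⁻¹ * b, by rwa [add_mem_cancel_right h], by rwa [add_mem_cancel_left a3]⟩
    · exact ⟨_, h, this⟩
  obtain ⟨g', a', c1, c2, c3⟩ := exists_mem_A_smul hB hs hx hw0 hw hx (k b1)
  have h2 := three_le hB hq hn hx (fun e => hb ((A_eq_of_qRel e).ge a3))
    (fun e => b1 ((A_eq_of_qRel e).ge c3)) (fun e => b2 ((A_eq_of_qRel e).ge c3)) h1 (K_le_smul a2 a1 h1) (K_le_smul c2 c1 h1)
  have h3 := Root.m_zero_add (R := root hA x) (Ω := Ω) rfl (exists_conj hB hs hx) hw0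
  have h4 := card_lt hq hβ
  obtain ⟨j, rfl⟩ := Nat.exists_eq_add_of_le' (show 1 ≤ q from hq ▸ Nat.card_pos)
  rw [hq, Nat.add_sub_cancel] at h3
  nlinarith [Nat.mul_le_mul_left j (one_le hB hq hn hx h1 hw)]

theorem even_K (h2 : (2 : F) = 0) (h1 : 1 ≤ n) (hP : ¬ P hA (stabilizer _ ω) x) :
    (∀ u ∈ K hA (stabilizer _ ω) x, u ∈ F ∙ x) ∨ (∀ u, B x u = 0 → u ∈ K hA (stabilizer _ ω) x) ∨
      ∃ y, B x y = 0 ∧ y ∉ F ∙ x ∧ (∀ u, B x u = 0 → B y u = 0 → u ∈ K hA (stabilizer _ ω) x) ∧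
      (∀ g : isom B, g.1 x = x → g.1 y ∈ span F {x, y} → QRel hA x ω (g • ω)) ∧ A hA x ω = ⊤ := by
  haveI : Finite V := Module.finite_of_finite F
  have hx := ne_zero_of_not_p hP
  have hs' : ∀ a b, B a b = B b a := fun a b => by rw [← hA.neg_eq]; linear_combination -B b a * h2
  refine (em _).imp_right fun e' => (em _).imp_right fun e => ?_
  obtain ⟨y, hy, hy'⟩ : ∃ y ∈ ann B (K hA (stabilizer _ ω) x), y ∉ F ∙ x := by
    by_contra! a
    refine e fun u hu => mem_of_perp_ann hB.2 hs' fun w hw => ?_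
    obtain ⟨c, rfl⟩ := mem_span_singleton.1 (a w hw)
    simp [hu]
  obtain ⟨w, hw0, hw⟩ := exists_mem_A hP
  have h3 := (card_ann_mul hB.2 (K hA (stabilizer _ ω) x)).trans (card_V hq hn)
  have h4 := even_m (hA := hA) hB hq hβ hs hx hw0
  have hq2 : 2 ≤ q := hq ▸ Finite.one_lt_card
  have h5 : q ^ 2 ≤ q ^ (2 * n) := Nat.pow_le_pow_right (by omega) (by omega)
  have k0 : ∀ ω ω' : Ω, QRel hA x ω ω' → ann B (K hA (stabilizer _ ω) x) =
    ann B (K hA (stabilizer _ ω') x) := fun _ _ h => by rw [K_eq_of_qRel h]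
  have k1 : ∀ c : F, c • x ∈ ann B (K hA (stabilizer _ ω) x) := fun c =>
    mem_ann_of_perp fun u ⟨_, hu⟩ => by simp [hu.perp]
  have k2 : ∀ v ∈ ann B (K hA (stabilizer _ ω) x), B x v = 0 := fun v hv =>
    hA.isRefl _ _ (perp_of_mem_ann hv smul_self_mem_K)
  have k3 : ∀ y ∈ ann B (K hA (stabilizer _ ω) x), y ∉ F ∙ x → ∀ g : isom B, g.1 x = x →
      g⁻¹.1 y ∈ ann B (K hA (stabilizer _ ω) x) → QRel hA x ω (g • ω) := fun y hy hy' g a1 a2 =>
    by_contra fun e => h4.not_ge (le_trans (by simp) (mul_le_of_count hB hq hn h1 hx mem_ann_smul k0 k1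
      (k2 y hy) hy' (fun i : Bool => cond i 1 g) (Bool.forall_bool.2 ⟨a1, rfl⟩) (Bool.forall_bool.2
        ⟨apply_inv g y ▸ (mem_ann_smul g ω _ a1).2 a2, by simpa using hy⟩) (by
      rintro (_ | _) (_ | _) h
      exacts [rfl, absurd (by simpa using (QRel hA x).symm h) e, absurd (by simpa using h) e, rfl])
      h3.le hw))
  obtain h6 | ⟨y', h6⟩ := block (hA := hA) hB k2 fun y hy hy' u c a1 a2 v hv =>
    k0 _ _ (k3 y hy hy' (tv hA u c) (tv_apply_of a1) (by rwa [tv_inv, tv_apply_of a2])) ▸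
      (mem_ann_smul _ ω v (tv_apply_of a1)).2 hv
  · refine absurd (fun u hu => ?_) e'
    obtain ⟨c, rfl⟩ := exists_smul_of_forall_orth hA hB (u := x) (z := u) fun v hv => eq_zero_of_psi
      fun c => by simpa using h6 (c • v) (by simp [hA.isRefl _ _ hv]) u hu
    exact smul_mem _ c (mem_span_singleton_self x)
  rw [span_pair_eq hy' (h6 y hy)] at h6
  have h7 := card_span_pair hx hy'
  have h8 : ann B (K hA (stabilizer _ ω) x) ≤ (span F {x, y}).toAddSubgroup := h6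
  have h9 : ∀ {p : AddSubgroup F → Prop} (hp : p (A hA x ω)), _ := fun hp => count_le hB hq hn hx
    mem_ann_smul k0 k1 (k2 y hy) hy' (fun _ : Unit => 1) (fun _ => rfl) (fun _ => by rwa [one_smul])
      (fun _ _ _ => rfl) hp
  have h11 : ann B (K hA (stabilizer _ ω) x) = (span F {x, y}).toAddSubgroup := by_contra fun e => by
    have a1 := two_mul_card_le (h8.lt_of_ne e)
    rw [h7, hq] at a1
    exact num_d hq2 h5 a1 h3 (le_trans (by simp) (h9 (p := (w ∈ ·)) hw)) (hq ▸ Root.mul_m_le (R := root hA x)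
      (Ω := Ω) rfl (exists_conj hB hs hx) hw0) hβ
  refine ⟨y, k2 y hy, hy', fun u a1 a2 => mem_of_perp_ann hB.2 hs' fun w hw =>
    forall_span_pair.2 ⟨a1, a2⟩ w (h8 hw), fun g a1 a2 => k3 y hy hy' g a1 (h11.ge (inv_mem_span hy' a1 a2)),
    by_contra fun e => ?_⟩
  obtain ⟨b, -, hb⟩ := SetLike.not_le_iff_exists.1 (mt eq_top_iff.2 e)
  have a1 := h9 (p := fun A => w ∈ A ∧ b ∉ A) ⟨hw, hb⟩
  rw [h11, h7, hq] at a1 h3
  exact num_e hq2 h5 h3 (by simpa using a1) (hq ▸ Root.mul_mp_le (R := root hA x)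
    (Ω := Ω) rfl (exists_conj hB hs hx) hw0) hβ

end Cfsg.Lib.MinDeg.Sp
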