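import Cfsg.Agent.Lib.MinDeg.SpG

/-!
# Minimal degrees of symplectic groups: the exceptional configurations
-/

set_option autoImplicit false

namespace Cfsg.Lib.MinDeg.Sp

open Module Submodule Cfsg.Lib.Symp

variable {F V : Type*} [Field F] [AddCommGroup V] [Module F V] {B : LinearMap.BilinForm F V}
  {hA : B.IsAlt} {H : Subgroup (isom B)} {x y u u' v : V} {a b c c' γ : F} {g : isom B}

theorem not_p_add (hx : ¬ P hA H x) (hy : P hA H y) (h : B x y = 0)
    (hE : ∀ c : F, E hA H x (c • y) 0) (ν : F) : ¬ P hA H (x + ν • y) := fun e => hx fun c => by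
  have h1 := mul_mem (inv_mem (hy (c * ν ^ 2))) (e c)
  obtain ⟨_, h2⟩ := hE (c * ν)
  convert mul_mem h1 (inv_mem h2) using 1
  rw [eq_mul_inv_iff_mul_eq, eq_inv_mul_iff_mul_eq]
  refine isom_ext fun v => ?_
  simp only [sg_apply, tv_apply, isom_mul_apply, map_add, map_smul, LinearMap.add_apply,
    LinearMap.smul_apply, smul_eq_mul, hA.self_eq_zero, h, hA.isRefl _ _ h]
  module

theorem perp_of_p (hb : b ≠ 0) (hb' : b ≠ 1) (hx : ¬ P hA H x) (hy : P hA H y) (h : B x y = 0)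
    (hE : ∀ c : F, E hA H x (c • y) 0) (hu : P hA H u) : B y u = 0 := by_contra fun e => by
  have h1 : B (x + (-B x u / B y u) • y) u = 0 := by simp [e]
  have h2 := not_p_add hx hy h hE (-B x u / B y u)
  have h3 : ∀ c : F, E hA H (x + (-B x u / B y u) • y) (c • y) 0 := fun c => by
    obtain ⟨_, h3⟩ := hE c
    refine ⟨by simp [h, hA.self_eq_zero], ?_⟩
    convert mul_mem h3 (hy (2 * c * (-B x u / B y u))) using 1
    refine isom_ext fun v => ?_
    simp only [sg_apply, tv_apply, isom_mul_apply, map_add, map_smul, LinearMap.add_apply,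
      LinearMap.smul_apply, smul_eq_mul, hA.self_eq_zero, h, hA.isRefl _ _ h]
    module
  refine h2 (p_of_mul (s := (b ^ 2 - b) * B y u ^ 2) (by
    simp [e, sub_eq_zero, sq, hb, hb']) fun c => ?_)
  have k := fun μ c => ((h3 μ).conj₁ (hu c) (tv_apply_of h1)).sub (h3 μ)
  convert (k 1 (b * c)).tv ((k b c).congr (by
    simp only [tv_apply, map_smul, LinearMap.smul_apply, smul_eq_mul]
    module) rfl) using 2
  simp only [tv_apply, map_smul, map_add, LinearMap.smul_apply, smul_eq_mul, hA.self_eq_zero]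
  ring

variable [FiniteDimensional F V] (hB : B.Nondegenerate)
include hB

theorem exists_line (hn : finrank F V = 4) (hb : b ≠ 0) (hb' : b ^ 2 ≠ 1) (hx : ¬ P hA H x)
    (h : B x y = 0) (hy : y ∉ F ∙ x) (hK : ∀ c : F, c • y ∈ K hA H x)
    (hc : ∀ g : isom B, g.1 x = x → g.1 y ∈ span F {x, y} → ∃ z ∈ pointRad hA x, z * g ∈ H)
    (h2 : (2 : F) = 0 → ∀ c, tv hA x c ∈ H → c = 0) :
    ∃ y ≠ 0, B x y = 0 ∧ P hA H y ∧ ∀ c : F, E hA H x (c • y) 0 := by
  have hx0 := ne_zero_of_not_p hx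
  have hb1 : b - 1 ≠ 0 := fun e => hb' (by rw [sub_eq_zero.1 e, one_pow])
  have k0 : ∀ y, B x y = 0 → y ∉ F ∙ x → ∃ g : isom B, g.1 x = x ∧ g.1 y = b • y := fun y h hy =>
    exists_map hA hB hy (mt (smul_mem_iff _ hb).1 hy) (by simp [h])
  obtain ⟨ν, hE⟩ : ∃ ν : F, ∀ c : F, E hA H x (c • (y + ν • x)) 0 := by
    obtain ⟨g, a1, a2⟩ := k0 y h hy
    obtain ⟨_, ⟨d, γ, a3, rfl⟩, a4⟩ := hc g a1 (a2 ▸ smul_mem _ _ (subset_span (by simp)))
    refine ⟨B (b • y) d / (b - 1), fun c => ?_⟩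
    obtain ⟨γ', a5⟩ := hK (c / (b - 1))
    refine ((a5.conj₁ a4 (by rw [isom_mul_apply, a1, sg_apply_self])).sub a5).congr ?_ ?_ <;>
      rw [map_smul (_ : V ≃ₗ[F] V), isom_mul_apply, a2, sg_apply_of _ (by simp [hA.isRefl _ _ h])]
    · match_scalars <;> field_simp
    · simp [hA.self_eq_zero, hA.isRefl _ _ h]
  have hc' : ∀ g : isom B, g.1 x = x → ∀ β : F, g.1 (y + ν • x) = β • (y + ν • x) →
      ∃ z ∈ pointRad hA x, z * g ∈ H := fun g a1 β a2 => hc g a1 (by
    rw [map_add, map_smul, a1, ← eq_sub_iff_add_eq] at a2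
    exact mem_span_pair.2 ⟨β * ν - ν, β, by rw [a2]; module⟩)
  replace h : B x (y + ν • x) = 0 := by simp [h, hA.self_eq_zero]
  replace hy : y + ν • x ∉ F ∙ x := fun e =>
    hy ((add_mem_cancel_right (smul_mem _ ν (mem_span_singleton_self x))).1 e)
  generalize y + ν • x = y at hE hc' h hy
  have h' := hA.isRefl _ _ h
  have k1 : (2 : F) ≠ 0 → ∀ g : isom B, g.1 x = x → ∀ β : F, β ≠ 0 → g.1 y = β • y →
      ∀ d γ a, sg hA x d γ a * g ∈ H → B y d = 0 := fun e g a1 β hβ a2 d γ a3 a4 => by_contra fun e' =>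
    hx (p_of_mul (s := 2 * β * B y d) (by simp [*]) fun c => by
      have := (((hE c).conj₁ a4 (by rw [isom_mul_apply, a1, sg_apply_self])).congr
        (u' := (c * β) • y + (c * β * B y d) • x) (by
          rw [map_smul, isom_mul_apply, a2, sg_apply_of _ (by simp [h'])]
          simp only [map_smul, LinearMap.smul_apply, smul_eq_mul]; module) rfl)
      convert (e_add_smul_iff.1 this).tv (hE (c * β)) using 2; ring)
  have k2 : ∀ c, ∃ γ, tv hA x γ * tv hA y c ∈ H := fun c => by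
    rcases eq_or_ne c 0 with rfl | hc0
    · exact ⟨0, by simp⟩
    obtain ⟨_, ⟨d, γ, a3, rfl⟩, a4⟩ := hc' (tv hA y c) (tv_apply_of h) 1 (by rw [tv_apply_self, one_smul])
    have a5 : B y d = 0 := by
      by_cases e : (2 : F) = 0
      swap
      · exact k1 e _ (tv_apply_of h) 1 one_ne_zero (by rw [tv_apply_self, one_smul]) d γ a3 a4
      have a5 : E hA H x ((c * B d y) • y) (c * B y d ^ 2) := ⟨by simp [h], by
        convert mul_mem a4 a4 using 1
        refine isom_ext fun v => ?_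
        haveI := CharTwo.of_one_ne_zero_of_two_eq_zero one_ne_zero e
        simp only [sg_apply, tv_apply, isom_mul_apply, map_add, map_smul, LinearMap.add_apply,
          LinearMap.smul_apply, smul_eq_mul, hA.self_eq_zero, h, h', a3, hA.isRefl _ _ a3, ← hA.neg_eq y d]
        match_scalars <;> grind⟩
      simpa [hc0] using h2 e _ (a5.tv (hE _))
    obtain ⟨α, β, rfl⟩ := mem_span_of_perp hA hB hn hx0 hy h a3 a5
    obtain ⟨_, a6⟩ := hE β
    refine ⟨γ + 2 * α, ?_⟩
    convert mul_mem (inv_mem a6) a4 using 1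
    rw [eq_inv_mul_iff_mul_eq]
    refine isom_ext fun v => ?_
    simp only [sg_apply, tv_apply, isom_mul_apply, map_add, map_smul, LinearMap.add_apply,
      LinearMap.smul_apply, smul_eq_mul, hA.self_eq_zero, h, h']
    module
  obtain ⟨g, a1, a2⟩ := k0 y h hy
  obtain ⟨_, ⟨d, γ, a3, rfl⟩, a4⟩ := hc' g a1 b a2
  have a5 : (sg hA x d γ a3 * g).1 x = x := by rw [isom_mul_apply, a1, sg_apply_self]
  have a6 : (sg hA x d γ a3 * g).1 y = b • y + (b * B y d) • x := by
    rw [isom_mul_apply, a2, sg_apply_of _ (by simp [h'])]; simp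
  obtain ⟨μ, h3, h4⟩ : ∃ μ : F, μ ^ 2 * (b ^ 2 - 1) = (b * B y d) ^ 2 ∧ 2 * μ = 0 := by
    by_cases e : (2 : F) = 0
    · exact ⟨b * B y d / (b - 1), by
        rw [show b ^ 2 - 1 = (b - 1) ^ 2 by linear_combination (b - 1) * e]; field_simp, by simp [e]⟩
    · exact ⟨0, by simp [k1 e g a1 b hb a2 d γ a3 a4], by simp⟩
  refine ⟨y + μ • x, fun e => hy (eq_neg_of_add_eq_zero_left e ▸ neg_mem (smul_mem _ μ
    (mem_span_singleton_self x))), by simp [h, hA.self_eq_zero],
    p_of_mul (sub_ne_zero.2 hb') fun c => ?_, fun c => ?_⟩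
  · obtain ⟨γ', a7⟩ := k2 c
    have a8 := mul_mem (inv_mem a7) (mul_mem (mul_mem a4 a7) (inv_mem a4))
    rw [← conj_mul, conj_tv, conj_tv, a5, a6, mul_inv_rev, mul_assoc, inv_mul_cancel_left, tv_inv] at a8
    obtain ⟨_, a9⟩ := hE (c * (b ^ 2 - 1) * μ - c * b * (b * B y d))
    convert mul_mem a8 a9 using 1
    refine isom_ext fun v => ?_
    simp only [sg_apply, tv_apply, isom_mul_apply, map_add, map_smul, LinearMap.add_apply,
      LinearMap.smul_apply, smul_eq_mul, hA.self_eq_zero, h, h']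
    match_scalars
    · ring
    · ring
    · linear_combination c * B v x * h3
  · rw [smul_add, smul_smul, e_add_smul_iff, zero_add, mul_left_comm, h4, mul_zero]
    exact hE c

theorem perp_of_line (hn : finrank F V = 4) (hb : b ≠ 0) (hb' : b ≠ 1) (hx : ¬ P hA H x) (hy0 : y ≠ 0)
    (h : B x y = 0) (hy : P hA H y) (hE : ∀ c : F, E hA H x (c • y) 0) (hu : P hA H u)
    (hu' : P hA H u') : B u u' = 0 := by_contra fun e => by
  have h1 := perp_of_p hb hb' hx hy h hE hu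
  have h2 := perp_of_p hb hb' hx hy h hE hu'
  obtain ⟨α, β, h3⟩ := mem_span_of_perp hA hB hn hy0 (y := u) (v := x - (B u x / B u u') • u')
    (fun e' => by
      obtain ⟨c, rfl⟩ := mem_span_singleton.1 e'
      simp [h2] at e) h1 (by simp [h2, hA.isRefl _ _ h]) (by simp [e])
  refine not_p_add hx hy h hE (-α) ?_
  convert hu'.comb hu e β (B u x / B u u') using 1
  rw [eq_sub_iff_add_eq] at h3
  rw [neg_smul, add_neg_eq_iff_eq_add]
  exact h3.symm.trans (by abel)

omit hB [FiniteDimensional F V] in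
theorem bad_of (h2 : (2 : F) = 0) (hv : v ∈ K hA H x) (hv' : B v u' = 0) (hu : B x u = 0)
    (hu' : B x u' = 0) {z : isom B} (hz : z ∈ pointRad hA x) (hH : tv hA u c * z * tv hA u' c' ∈ H) :
    E hA H x ((c * B v u) • u) (c * B v u ^ 2) := by
  obtain ⟨d, γ, a1, rfl⟩ := hz
  obtain ⟨δ, b4⟩ := hv
  have := (b4.conj₁ hH (y := x) (by
    rw [isom_mul_apply, isom_mul_apply, tv_apply_of hu', sg_apply_self, tv_apply_of hu])).congr
      (u' := (v + (c * B v u) • u) + B v d • x) (by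
        rw [isom_mul_apply, isom_mul_apply, tv_apply_of hv', sg_apply_of _ (hA.isRefl _ _ b4.perp),
          map_add, map_smul, tv_apply_of hu, tv_apply]) rfl
  refine ((e_add_smul_iff.1 this).sub b4).congr (by abel) ?_
  simp only [map_add, map_smul, smul_eq_mul, hA.self_eq_zero]
  linear_combination (B v d - c * B v u ^ 2) * h2

theorem bad (h2 : (2 : F) = 0) (hK : ∀ v, B x v = 0 → v ∈ K hA H x) (hu : B x u = 0)
    (hu' : B x u' = 0) (h : u ∉ span F {x, u'}) {z : isom B} (hz : z ∈ pointRad hA x)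
    (hH : tv hA u c * z * tv hA u' c' ∈ H) (β : F) : E hA H x ((c * β) • u) (c * β ^ 2) := by
  obtain ⟨v, b1, b2, b3⟩ := exists_perp_pair hA hB h (-β)
  have b5 : B v u = β := by rw [← hA.neg_eq, b3, neg_neg]
  exact b5 ▸ bad_of h2 (hK v b1) (hA.isRefl _ _ b2) hu hu' hz hH

omit hB [FiniteDimensional F V] in
theorem eq_of_bad (hs : ∀ s : F, ∃ μ, μ ^ 2 = s) (hx : ¬ P hA H x) (hc : c ≠ 0) (hc' : c' ≠ 0)
    (h : ∀ β, E hA H x ((c * β) • u) (c * β ^ 2)) (h' : ∀ β, E hA H x ((c' * β) • u) (c' * β ^ 2)) :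
    c = c' := by_contra fun e => hx (p_of_mul (s := c⁻¹ - c'⁻¹) (by simpa [sub_eq_zero]) fun s => by
  obtain ⟨μ, rfl⟩ := hs s
  convert (h (μ / c)).tv ((h' (μ / c')).congr (by field_simp) rfl) using 2
  field_simp)

theorem eq_of_cover (h2 : (2 : F) = 0) (hs : ∀ s : F, ∃ μ, μ ^ 2 = s) (hx : ¬ P hA H x)
    (hK : ∀ v, B x v = 0 → v ∈ K hA H x) (hu : B x u = 0) (h : u ∉ F ∙ x) (hc : c ≠ 0) (hc' : c' ≠ 0)
    {z z' : isom B} (hz : z ∈ pointRad hA x) (hz' : z' ∈ pointRad hA x) (hH : tv hA u c * z ∈ H)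
    (hH' : tv hA u c' * z' ∈ H) : c = c' := by
  have h0 : u ∉ span F {x, 0} := by rwa [Set.pair_comm, span_insert_zero]
  exact eq_of_bad hs hx hc hc' (bad hB h2 hK hu (map_zero _) h0 hz (c' := 0) (by simpa))
    (bad hB h2 hK hu (map_zero _) h0 hz' (c' := 0) (by simpa))

theorem p_of_full (hn : 4 ≤ finrank F V) (h2 : (2 : F) = 0) (hs : ∀ s : F, ∃ μ, μ ^ 2 = s) (hb : b ≠ 0)
    (hb' : b ≠ 1) (hK : ∀ x, ¬ P hA H x → ∀ v, B x v = 0 → v ∈ K hA H x) : P hA H x := by_contra fun hx => by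
  have k1 : ∀ u, B x u = 0 → u ∉ F ∙ x → ¬ P hA H u := fun u hu e e' =>
    hb' (eq_of_cover hB h2 hs hx (hK x hx) hu e hb one_ne_zero (one_mem _) (one_mem _)
      (by simpa using e' b) (by simpa using e' 1))
  have k2 : ∀ u, B x u = 0 → u ∉ F ∙ x → ∀ c : F, E hA H x (c • u) 0 := fun u hu e => by
    have hu' := hA.isRefl _ _ hu
    have e' : x ∉ F ∙ u := fun a => by
      obtain ⟨c, rfl⟩ := mem_span_singleton.1 a
      exact e (mem_span_singleton.2 ⟨c⁻¹, inv_smul_smul₀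
        (left_ne_zero_of_smul (ne_zero_of_not_p hx)) u⟩)
    have k : ∀ ν : F, ν ≠ 0 → (∀ c : F, E hA H x (c • u) 0) ∨ ∃ γ ≠ 0, (∃ z ∈ pointRad hA u,
        tv hA x γ * z ∈ H) ∧ ∃ z ∈ pointRad hA x, tv hA u (γ * ν ^ 2) * z ∈ H := fun ν hν => by
      refine (em _).imp_right fun a => ?_
      obtain ⟨c, hc⟩ := not_forall.1 a
      obtain ⟨γ, _, a1⟩ := hK (x + ν • u) (k1 _ (by simp [hu, hA.self_eq_zero]) fun a => e
        ((smul_mem_iff _ hν).1 ((add_mem_cancel_left (mem_span_singleton_self x)).1 a))) (c • u)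
        (by simp [hu, hA.self_eq_zero])
      refine ⟨γ, ?_, ⟨_, ⟨(c + γ * ν) • x, γ * ν ^ 2, by simp [hu'], rfl⟩, ?_⟩,
        _, ⟨(c + γ * ν) • u, γ, by simp [hu], rfl⟩, ?_⟩
      · rintro rfl
        refine hc ⟨by simp [hu], ?_⟩
        convert a1 using 1
        refine sg_congr fun v => ?_
        simp only [map_add, map_smul, smul_eq_mul]
        match_scalars
        · linear_combination -(c * ν * B v u) * h2
        · ring
      all_goals
        convert a1 using 1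
        refine isom_ext fun v => ?_
        simp only [sg_apply, tv_apply, isom_mul_apply, map_add, map_smul, LinearMap.add_apply,
          LinearMap.smul_apply, smul_eq_mul, hA.self_eq_zero, hu, hu']
        match_scalars <;> grind
    refine (k 1 one_ne_zero).elim id fun ⟨γ, a1, ⟨z, a2, a3⟩, z', a4, a5⟩ =>
      (k b hb).elim id fun ⟨γ', b1, ⟨w, b2, b3⟩, w', b4, b5⟩ => absurd ?_ hb'
    obtain rfl := eq_of_cover hB h2 hs (k1 u hu e) (hK u (k1 u hu e)) hu' e' a1 b1 a2 b2 a3 b3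
    have := eq_of_cover hB h2 hs hx (hK x hx) hu e (by simpa) (by simp [a1, hb]) a4 b4 a5 b5
    have h3 : (b - 1) ^ 2 = 0 := mul_left_cancel₀ a1 (by linear_combination -this + γ * (1 - b) * h2)
    exact sub_eq_zero.1 (pow_eq_zero_iff two_ne_zero |>.1 h3)
  obtain ⟨u, hu, e⟩ : ∃ u, B x u = 0 ∧ u ∉ span F {x, x} := by
    by_contra! a
    have := finrank_le_of_perp hA hB (x := x) (y := x) (n := 1) (U := F ∙ x)
      (finrank_span_singleton (ne_zero_of_not_p hx)).le fun w a1 _ => by simpa using a w a1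
    omega
  refine hx fun s => (eq_or_ne s 0).elim (by rintro rfl; simp) fun hs => ?_
  obtain ⟨w, a1, -, a2⟩ := exists_perp_pair hA hB e s
  have k3 : ∀ v v', B x v' = 0 → B v v' ≠ 0 → v ∉ F ∙ x := fun v v' a b e => by
    obtain ⟨c, rfl⟩ := mem_span_singleton.1 e
    simp [a] at b
  simpa [a2] using ((k2 w a1 (k3 w u hu (by rw [← hA.neg_eq, a2]; simpa)) 1).mul
    (k2 u hu (k3 u w a1 (a2 ▸ hs)) 1)).tv ((k2 (w + u) (by simp [a1, hu])
      (k3 _ w a1 (by simp [hA.self_eq_zero, a2, hs])) 1).congr (by simp) rfl)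

end Cfsg.Lib.MinDeg.Sp
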