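import Cfsg.Agent.Lib.MinDeg.Sp

/-!
# Minimal degrees of symplectic groups over the field with two elements
-/

set_option autoImplicit false

namespace Cfsg.Lib.MinDeg.Sp

open Module Submodule Cfsg.Lib.Symp MulAction QuadraticMap
open Cfsg.Lib.Orth (ND cnt)

variable {F V : Type*} [Field F] [AddCommGroup V] [Module F V] {B : LinearMap.BilinForm F V}
  {hA : B.IsAlt} {H : Subgroup (isom B)} {x y u v : V} {γ : F} {g : isom B}

open Classical in
variable (hA H) in
/-- The indicator function of the centres of transvections in `H`. -/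
noncomputable def ind (v : V) : F := if v ≠ 0 ∧ P hA H v then 1 else 0

open Classical in
theorem ind_map (hg : g ∈ H) (v : V) : ind hA H (g.1 v) = ind hA H v :=
  if_congr (and_congr g.1.map_ne_zero_iff ⟨fun h => by simpa using h.map (inv_mem hg),
    fun h => h.map hg⟩) rfl rfl

theorem tv_map {Q : QuadraticForm F V} (hQ : ∀ u v, polar Q u v = B u v) (hy : Q y = 0) (v : V) :
    Q ((tv hA y 1).1 v) = Q v + B v y ^ 2 := by
  rw [tv_apply, Orth.Q_add, Orth.Q_smul, hy, Orth.polar_smul_right', hQ]; ring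

variable (hq : Nat.card F = 2)
include hq

theorem eq_or (c : F) : c = 0 ∨ c = 1 := by
  obtain ⟨y, -, hy⟩ := (Nat.card_eq_two_iff' (0 : F)).1 hq
  exact (em _).imp_right fun h => (hy c h).trans (hy 1 one_ne_zero).symm

theorem two_eq : (2 : F) = 0 := (eq_or hq 2).resolve_right fun h => one_ne_zero (α := F) (by
  linear_combination h)

theorem sq_eq (c : F) : c ^ 2 = c := by rcases eq_or hq c with rfl | rfl <;> simp

theorem eq_zero_of_tv (hx : ¬ P hA H x) (h : tv hA x γ ∈ H) : γ = 0 :=
  (eq_or hq γ).resolve_right (by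
    rintro rfl; exact hx fun c => by rcases eq_or hq c with rfl | rfl <;> simp [h])

/-- The quadratic form defined by `H`. -/
noncomputable def form {W : Type*} [AddCommGroup W] [Module F W] (f : W →ₗ[F] V)
    (h : ∀ a b, ind hA H (f a + f b) = ind hA H (f a) + ind hA H (f b) + B (f a) (f b)) :
    QuadraticForm F W where
  toFun w := ind hA H (f w)
  toFun_smul c w := by
    rcases eq_or hq c with rfl | rfl
    exacts [by simp [ind], by simp]
  exists_companion' := ⟨B.compl₁₂ f f, fun a b => by simp [h]⟩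

variable [FiniteDimensional F V] (hB : B.Nondegenerate)
include hB

section

variable (hn : 6 ≤ finrank F V) (hK : ∀ x, ¬ P hA H x → ∀ v, B x v = 0 → v ∈ K hA H x)
include hn hK

theorem eq_ind (hx : ¬ P hA H x) (h : E hA H x u γ) : γ = ind hA H u := by
  by_cases e : u ∈ F ∙ x
  · obtain ⟨c, rfl⟩ := mem_span_singleton.1 e
    have := eq_zero_of_tv hq hx (e_smul_iff.1 h)
    rw [two_eq hq, zero_mul, add_zero] at this
    rcases eq_or hq c with rfl | rfl <;> simp [ind, this, hx]
  have hu : u ≠ 0 := by rintro rfl; exact e (zero_mem _)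
  refine sub_eq_zero.1 (eq_zero_of_tv hq hx (h.tv ?_))
  by_cases e' : P hA H u
  · simpa [ind, hu, e'] using bad hB (two_eq hq) (hK x hx) h.perp (map_zero _) (by
      rwa [Set.pair_comm, span_insert_zero]) (one_mem _) (c := 1) (c' := 0) (by simpa using e' 1) 1
  obtain ⟨v, a1, a2, a3⟩ : ∃ v, B x v = 0 ∧ B u v = 0 ∧ v ∉ span F {x, u} := by
    by_contra! a
    have := finrank_le_of_perp hA hB (finrank_pair_le x u) a
    omega
  obtain ⟨z, b1, b2, b3⟩ := exists_perp_pair hA hB a3 (-1)
  obtain ⟨δ, c1, c2⟩ := hK u e' v a2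
  obtain ⟨ε, c3⟩ := hK x hx z b1
  have := (c3.conj₁ c2 (y := x) (by rw [sg_apply_of _ h.perp, a1, zero_smul, add_zero])).sub c3
  rw [sg_apply_of _ (hA.isRefl _ _ b2), ← hA.neg_eq, b3] at this
  simpa [ind, e', hA.self_eq_zero, hA.isRefl _ _ b2] using this

theorem ind_add_of (hx : ¬ P hA H x) (hu : B x u = 0) (hv : B x v = 0) :
    ind hA H (u + v) = ind hA H u + ind hA H v + B u v := by
  obtain ⟨γ, h1⟩ := hK x hx u hu
  obtain ⟨γ', h2⟩ := hK x hx v hv
  rw [← eq_ind hq hB hn hK hx h1, ← eq_ind hq hB hn hK hx h2, add_comm u, ← eq_ind hq hB hn hK hx (h2.mul h1)]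
  ring

theorem ind_add (hx : ¬ P hA H x) (u v : V) : ind hA H (u + v) = ind hA H u + ind hA H v + B u v := by
  haveI : Finite F := Nat.finite_of_card_ne_zero (by omega)
  have h1 := LinearMap.BilinForm.finrank_orthogonal hB (span F {u, v})
  have h2 := finrank_pair_le (F := F) u v
  have h3 := finrank_sup_add_finrank_inf_eq (N B x) (B.orthogonal (span F {u, v}))
  have h4 := finrank_le (N B x ⊔ B.orthogonal (span F {u, v}))
  have h5 := LinearMap.finrank_range_add_finrank_ker (B x)
  have h6 := (finrank_le (LinearMap.range (B x))).trans_eq (finrank_self F)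
  obtain ⟨z, a1, a2⟩ := Orth.exists_singular (form hq (N B x ⊓ B.orthogonal (span F {u, v})).subtype
    fun a b => ind_add_of hq hB hn hK hx a.2.1 b.2.1) (by unfold N at *; omega)
  have a3 := forall_span_pair.1 z.2.2
  exact ind_add_of hq hB hn hK (x := z.1) (fun e => one_ne_zero ((if_pos ⟨by simpa, e⟩).symm.trans a2))
    (hA.isRefl _ _ a3.1) (hA.isRefl _ _ a3.2)

end

variable {n : ℕ} (hn : finrank F V = 2 * n + 2)
include hn

variable (hA) in
include hA in
theorem le_card_two (h1 : 2 ≤ n) {Ω : Type*} [MulAction (isom B) Ω] [Finite Ω] {ω : Ω}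
    (hω : stabilizer (isom B) ω ≠ ⊤) : 2 ^ (2 * n + 1) ≤ Nat.card Ω + 2 ^ n := not_lt.1 fun hβ => by
  haveI : Finite F := Nat.finite_of_card_ne_zero (by omega)
  haveI : Finite V := Module.finite_of_finite F
  obtain ⟨x, hP⟩ : ∃ x, ¬ P hA (stabilizer _ ω) x := not_forall.1 fun e => hω (eq_top_of_tv_mem hA hB _ e)
  have hK : ∀ x, ¬ P hA (stabilizer _ ω) x → ∀ v, B x v = 0 → v ∈ K hA (stabilizer _ ω) x := by
    intro x hP u hu
    refine mem_of_perp_ann hB.2 (fun a b => by rw [← hA.neg_eq]; linear_combination -B b a * two_eq hq)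
      fun y hy => ?_
    have hx := ne_zero_of_not_p hP
    obtain ⟨c, rfl⟩ := mem_span_singleton.1 (show y ∈ F ∙ x from by_contra fun hy' => by
      obtain ⟨w, hw0, hw⟩ := exists_mem_A hP
      have h2 := mul_le_of_count hB hq hn (by omega) hx
        (X := fun ω => ann B (K hA (stabilizer _ ω) x)) mem_ann_smul (fun _ _ h => by rw [K_eq_of_qRel h])
        (fun c => mem_ann_of_perp fun u ⟨_, hu⟩ => by simp [hu.perp])
        (hA.isRefl _ _ (perp_of_mem_ann hy smul_self_mem_K)) hy' (fun _ : Unit => 1) (fun _ => rfl)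
        (fun _ => by rwa [one_smul]) (fun _ _ _ => rfl)
        ((card_ann_mul hB.2 _).trans (card_V hq hn)).le hw
      have h3 := Root.mul_m_le (R := root hA x) (Ω := Ω) rfl
        (exists_conj hB (fun s => ⟨s, sq_eq hq s⟩) hx) hw0
      rw [Nat.card_unique, one_mul] at h2
      rw [hq] at h3
      have := (Nat.mul_le_mul_left 2 h2).trans h3
      have : 0 < 2 ^ n := by positivity
      omega)
    simp [hu]
  let Q := form hq LinearMap.id (ind_add hq hB (by omega) hK hP)
  have h2 : ∀ u v, polar Q u v = B u v := fun u v => by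
    simp [Q, polar, form, ind_add hq hB (by omega) hK hP]; ring
  have hQ : ND Q := (Orth.nd_iff Q).2 fun x hx => hB.1 x fun y => h2 x y ▸ hx y
  have h3 : cnt Q 0 ≤ Nat.card Ω := Nat.card_le_card_of_injective (fun y => (tv hA y.1 1)⁻¹ • ω)
    fun y y' e => Subtype.ext (sub_eq_zero.1 (hB.2 _ fun v => by
      have a1 : Q ((tv hA y.1 1).1 v) = Q ((tv hA y'.1 1).1 v) := by
        change ind hA _ _ = ind hA _ _
        simpa [isom_mul_apply, ← isom_mul_apply] using (ind_map (g := tv hA y'.1 1 * (tv hA y.1 1)⁻¹) (by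
          rw [mem_stabilizer_iff, mul_smul, smul_eq_iff_eq_inv_smul]; exact e) ((tv hA y.1 1).1 v)).symm
      rwa [tv_map h2 y.2, tv_map h2 y'.2, add_right_inj, sq_eq hq, sq_eq hq, ← sub_eq_zero, ← map_sub] at a1))
  have : 0 < 2 ^ n := by positivity
  rcases Orth.wittIndex_eq_or hQ (m := n + 1) hn with e | e
  · have := Orth.cnt_plus_zero hQ hn e
    rw [hq] at this; omega
  · have := Orth.cnt_minus_zero hQ hn (Nat.succ_injective e)
    rw [hq, pow_succ 2 n] at this; omega

omit hB hn in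
theorem min_index_sp_two [Fintype F] (h1 : 2 ≤ n) :
    (∀ H : Subgroup (PSp (n + 1) F), H ≠ ⊤ → 2 ^ n * (2 ^ (n + 1) - 1) ≤ H.index) ∧
      ∃ H : Subgroup (PSp (n + 1) F), H.index = 2 ^ n * (2 ^ (n + 1) - 1) := by
  obtain ⟨ζ, hζ⟩ := Orth.exists_aniso_one F
  have hQ := Orth.nd_qMinus n hζ
  have hn : finrank F ((Fin n ⊕ Fin n) ⊕ Fin 2 → F) = 2 * n + 2 := by simp; omega
  have h2 := Orth.cnt_minus_zero hQ hn (Orth.wittIndex_qMinus n hζ)
  have h3 := Orth.cnt_minus_ne hQ hn (Orth.wittIndex_qMinus n hζ) one_ne_zero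
  generalize Orth.qMinus n F 1 ζ = Q at hQ h2 h3
  have hA : LinearMap.BilinForm.IsAlt (polarBilin Q) := fun v => by simp [Orth.polar_self', two_eq hq]
  haveI := Cfsg.Lib.Unitary.finite_linearEquiv (F := F) (V := (Fin n ⊕ Fin n) ⊕ Fin 2 → F)
  obtain ⟨e⟩ := nonempty_isom_equiv (l := Fin (n + 1)) hA hQ (by rw [hn, Fintype.card_fin]; ring)
  have h4 : 2 ^ n * (2 ^ (n + 1) - 1) + 2 ^ n = 2 ^ (2 * n + 1) := by
    rw [← Nat.mul_succ, Nat.succ_eq_add_one, Nat.sub_add_cancel Nat.one_le_two_pow]; ring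
  have h5 : ∀ H : Subgroup (isom (polarBilin Q)), H ≠ ⊤ → 2 ^ n * (2 ^ (n + 1) - 1) ≤ H.index :=
    fun H hH => by
      have := le_card_two hA hq hQ hn h1 (ω := (QuotientGroup.mk 1 : _ ⧸ H)) (by rwa [stabilizer_quotient])
      rw [Subgroup.index]; omega
  let L : Subgroup (isom (polarBilin Q)) := ⟨⟨⟨{g | ∀ v, Q (g.1 v) = Q v}, fun a b v =>
    (a _).trans (b v)⟩, fun _ => rfl⟩, fun {g} a v => (a _).symm.trans (by rw [apply_inv])⟩
  rw [hq, pow_succ 2 n] at h2
  rw [hq] at h3
  have h6 : L.index ≤ cnt Q 0 := Nat.card_le_card_of_surjective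
    (fun y : {v // Q v = 0} => QuotientGroup.mk (tv hA y.1 1)⁻¹) fun g => by
      obtain ⟨g, rfl⟩ := QuotientGroup.mk_surjective g
      obtain ⟨y, hy⟩ := (LinearMap.BilinForm.toDual (polarBilin Q) hQ).surjective ⟨⟨fun v => Q (g⁻¹.1 v) - Q v, fun a b => by
        have := g⁻¹.2 a b
        simp only [polarBilin_apply_apply] at this
        rw [map_add, Orth.Q_add, Orth.Q_add, this]; ring⟩, fun c v => by
          rcases eq_or hq c with rfl | rfl <;> simp⟩
      replace hy : ∀ v, Q (g⁻¹.1 v) = Q v + polar Q v y := fun v => by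
        rw [polar_comm, ← sub_eq_iff_eq_add']; exact (congrArg (· v) hy).symm
      have h0 : Q y = 0 := (eq_or hq _).resolve_right fun e => by
        have : cnt Q 0 = cnt Q 1 := Nat.card_congr ((g.1.toEquiv.trans (Equiv.addRight y)).subtypeEquiv
          fun v => by
            have := hy (g.1 v)
            rw [inv_apply rfl] at this
            simp only [Equiv.trans_apply, LinearEquiv.coe_toEquiv, Equiv.coe_addRight, Orth.Q_add, e, this]
            constructor <;> intro h <;> linear_combination h)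
        have : 0 < 2 ^ n := by positivity
        omega
      refine ⟨⟨y, h0⟩, (QuotientGroup.eq.2 fun v => ?_).symm⟩
      rw [isom_mul_apply, hy, ← sq_eq hq (polar Q _ y)]
      exact (tv_map (B := polarBilin Q) (fun _ _ => rfl) h0 _).symm.trans (by rw [apply_inv])
  refine min_index_congr (Cfsg.Lib.Unitary.quotCenterCongr e) (min_index_of_surjective
    (QuotientGroup.mk' _) (QuotientGroup.mk'_surjective _) h5 (L := L) (fun g hg => ?_)
    (le_antisymm (by omega) (h5 L fun e => ?_)))
  · rcases (mem_center_iff hA hQ g).1 ((QuotientGroup.eq_one_iff g).1 hg) with rfl | rfl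
    exacts [one_mem _, fun v => Q.map_neg v]
  · obtain ⟨y, a1, a2⟩ := Orth.exists_singular Q (by omega)
    exact a1 (hQ.2 y fun v => by
      simpa [tv_map (B := polarBilin Q) (fun _ _ => rfl) a2] using (e.ge (Subgroup.mem_top (tv hA y 1)) v :))

end Cfsg.Lib.MinDeg.Sp
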